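import Cfsg.Agent.MaxSub.OrthExt.Pairs

/-!
Trace forms of ternary quadratic forms over a cubic extension: elementary facts and the elements of
an overgroup of the linear group.
-/

set_option autoImplicit false
set_option linter.unusedSectionVars false
set_option linter.style.haveILetI false

namespace Cfsg.Agent.MaxSub.OrthExtNine

open QuadraticMap Module Cfsg.Agent.Classical Cfsg.Agent.OrthGen
open Cfsg.Agent.MaxSub.OrthExt (Sk Sk_apply IsSkew Elt Cent AllSk IsLin exists_two_squares
  exists_common_zero img mem_img finrank_img)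
open Cfsg.Agent.MaxSub.ExtField (kline mem_kline self_mem_kline smul_mem_kline finrank_kline)

universe u v w

variable {F : Type u} {K : Type v} {V : Type w} [Field F] [Field K] [Algebra F K] [AddCommGroup V]
  [Module F V] [Module K V] [IsScalarTower F K V] [Finite K] [FiniteDimensional F K]
  [FiniteDimensional K V] {Q : QuadraticForm F V}

/-- The standing hypotheses. -/
structure Setup (QK : QuadraticForm K V) (M : Subgroup (OQ Q)) : Prop where
  two : (2 : F) ≠ 0
  val : ∀ v, Q v = Algebra.trace F K (QK v)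
  nondeg : BNondeg QK
  dim : finrank K V = 3
  rank : finrank F K = 3
  lin : ∀ s : OQ QK, s ∈ commutator (OQ QK) → ∃ g ∈ M, ∀ x, g.1 x = s.1 x

namespace Setup

variable {QK : QuadraticForm K V} {M : Subgroup (OQ Q)} (hS : Setup QK M)
include hS

lemma finiteF : Finite F := Finite.of_injective _ (algebraMap F K).injective

lemma twoK : (2 : K) ≠ 0 := fun h => hS.two (by
  apply (algebraMap F K).injective
  rw [map_ofNat, map_zero]; exact h)

lemma notExc : NotExceptional QK := notExceptional_of_two_ne_zero hS.twoK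

lemma sing_iff {x : V} : QK x = 0 ↔ polar QK x x = 0 := by
  rw [polar_self, two_smul, ← two_mul, mul_eq_zero, or_iff_right hS.twoK]

lemma ext_tr {x y : K} (h : ∀ k, Algebra.trace F K (k * x) = Algebra.trace F K (k * y)) :
    x = y := by
  haveI := hS.finiteF
  refine sub_eq_zero.1 ((traceForm_nondegenerate F K).1 _ fun k => ?_)
  rw [Algebra.traceForm_apply, mul_comm, mul_sub, map_sub, h, sub_self]

lemma exists_tr_ne {a : K} (ha : a ≠ 0) : ∃ c, Algebra.trace F K (c * a) ≠ 0 := by
  by_contra h
  push Not at h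
  exact ha (hS.ext_tr fun k => by rw [h, mul_zero, map_zero])

lemma polar_trace (u v : V) : polar Q u v = Algebra.trace F K (polar QK u v) := by
  simp only [polar, hS.val, map_sub]

lemma polar_smul (k : K) (u v : V) :
    polar Q (k • u) v = Algebra.trace F K (k * polar QK u v) := by
  rw [hS.polar_trace, polar_smul_left, smul_eq_mul]

lemma bnondeg : BNondeg Q := fun x hx => hS.nondeg x fun y => hS.ext_tr fun k => by
  rw [← smul_eq_mul, ← polar_smul_right, ← hS.polar_trace, hx, mul_zero, map_zero]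

lemma finiteV : Finite V := Module.finite_of_finite K

lemma perp_finrank (S : Submodule K V) :
    finrank K (perpSub QK S) = finrank K V - finrank K S := by
  rw [finrank_orthogonal_polar hS.nondeg]

/-- Siegel transformations over the extension. -/
lemma exists_siegel {u a : V} (hu : QK u = 0) (ha : polar QK u a = 0) :
    ∃ g ∈ M, ∀ x, g.1 x =
      x + polar QK u x • a - polar QK a x • u - (QK a * polar QK u x) • u := by
  haveI := hS.finiteF
  haveI := hS.finiteV
  have h' : polar QK u ((2 : K)⁻¹ • a) = 0 := by rw [polar_smul_right, ha, smul_zero]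
  have := Forms.mul_self_mem_commutator hS.nondeg hS.notExc (siegel QK hu h')
  rw [siegel_mul, siegel_congr QK _ _ hu ha rfl
    (show (2 : K)⁻¹ • a + (2 : K)⁻¹ • a = a by
      rw [← two_smul K, smul_inv_smul₀ hS.twoK])] at this
  obtain ⟨g, hg, hgx⟩ := hS.lin _ this
  exact ⟨g, hg, fun x => by rw [hgx, siegel_apply]⟩

lemma exists_coord {z : V} (hz : z ≠ 0) (H : K) : ∃ x, polar QK z x = H := by
  obtain ⟨y, hy⟩ : ∃ y, polar QK z y ≠ 0 := by
    by_contra h
    push Not at h
    exact hz (hS.nondeg z h)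
  exact ⟨(H / polar QK z y) • y, by
    rw [polar_smul_right, smul_eq_mul, div_mul_cancel₀ _ hy]⟩

lemma mem_line_of_perp {z w : V} (h : ∀ y, polar QK z y = 0 → polar QK w y = 0) :
    ∃ c : K, c • z = w := by
  by_contra hc
  obtain ⟨y, hy, hwy⟩ := OrthOverfield.exists_polar_ne hS.nondeg (S := K ∙ z) (z := w)
    (fun hw => hc (Submodule.mem_span_singleton.1 hw))
  exact hwy (h y (hy z (Submodule.mem_span_singleton_self z)))

lemma exists_dual₂ (z x : V) {l : V} (hl : l ∉ Submodule.span K {z, x}) :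
    ∃ a, polar QK z a = 0 ∧ polar QK x a = 0 ∧ polar QK l a = 1 := by
  obtain ⟨y, hy, hly⟩ := OrthOverfield.exists_polar_ne hS.nondeg hl
  refine ⟨(polar QK l y)⁻¹ • y, ?_, ?_, ?_⟩ <;> rw [polar_smul_right, smul_eq_mul]
  · rw [show polar QK z y = 0 from hy z (Submodule.subset_span (Set.mem_insert _ _)), mul_zero]
  · rw [show polar QK x y = 0 from hy x (Submodule.subset_span (Set.mem_insert_of_mem _ rfl)), mul_zero]
  · exact inv_mul_cancel₀ hly

lemma exists_dual {z l : V} (hl : ∀ c : K, c • z ≠ l) :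
    ∃ a, polar QK z a = 0 ∧ polar QK l a = 1 := by
  obtain ⟨a, h1, -, h3⟩ := hS.exists_dual₂ z z (l := l) (by
    rw [Set.pair_eq_singleton, Submodule.mem_span_singleton]
    rintro ⟨c, hc⟩
    exact hl c hc)
  exact ⟨a, h1, h3⟩

lemma exists_partner {z : V} (hz : QK z = 0) (hz0 : z ≠ 0) :
    ∃ f, QK f = 0 ∧ polar QK z f = 1 :=
  Forms.exists_singular_partner hS.nondeg hz hz0

lemma polar_map_of_lin {g : OQ Q} (hg : IsLin K g) (u v : V) :
    polar QK (g.1 u) (g.1 v) = polar QK u v := hS.ext_tr fun k => by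
  rw [← hS.polar_smul, ← hS.polar_smul, ← hg, OQ_polar]

lemma elt_map {g : OQ Q} (hg : g ∈ M) (hlin : IsLin K g) {z : V} {A : K →ₗ[F] K}
    (hA : Elt QK M z A) : Elt QK M (g.1 z) A := by
  obtain ⟨e, he, hex⟩ := hA
  refine ⟨g * e * g⁻¹, mul_mem (mul_mem hg he) (inv_mem hg), fun x => ?_⟩
  obtain ⟨y, rfl⟩ := g.1.surjective x
  rw [hS.polar_map_of_lin hlin]
  have : g⁻¹.1 (g.1 y) = y := g.1.symm_apply_apply y
  rw [Subgroup.coe_mul, Subgroup.coe_mul, LinearEquiv.mul_apply, LinearEquiv.mul_apply, this, hex,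
    map_add, hlin]

/-- An element fixing the orthogonal of `z` is given by a skew map. -/
lemma cent_elt {z : V} (hz : QK z = 0) (hz0 : z ≠ 0) (h : Cent QK M z) :
    ∃ A : K →ₗ[F] K, IsSkew A ∧ A ≠ 0 ∧ Elt QK M z A := by
  obtain ⟨g, hg, hg1, hfix⟩ := h
  obtain ⟨f, -, hzf⟩ := hS.exists_partner hz hz0
  have hline : ∀ x, ∃ c : K, c • z = g.1 x - x := by
    intro x
    refine hS.mem_line_of_perp fun y hy => hS.ext_tr fun k => ?_
    rw [mul_zero, map_zero, ← smul_eq_mul, ← polar_smul_right, ← hS.polar_trace, polar_sub_left]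
    conv_lhs =>
      arg 1
      rw [← hfix (k • y) (by rw [polar_smul_right, hy, smul_zero]), OQ_polar]
    rw [sub_self]
  let A : K →ₗ[F] K :=
    { toFun := fun H => polar QK f (g.1 (H • f) - H • f)
      map_add' := fun H H' => by
        rw [add_smul, map_add, ← polar_add_right]; congr 1; abel
      map_smul' := fun t H => by
        rw [smul_assoc, map_smul, ← smul_sub, RingHom.id_apply, ← algebraMap_smul K t,
          polar_smul_right, smul_eq_mul, ← Algebra.smul_def] }
  have hA : ∀ H, A H = polar QK f (g.1 (H • f) - H • f) := fun H => rfl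
  have hrep : ∀ x, g.1 x = x + A (polar QK z x) • z := by
    intro x
    obtain ⟨c, hc⟩ := hline (polar QK z x • f)
    have e := hfix (x - polar QK z x • f)
      (by rw [polar_sub_right, polar_smul_right, hzf, smul_eq_mul, mul_one, sub_self])
    rw [map_sub, sub_eq_iff_eq_add] at e
    rw [hA, ← hc, polar_smul_right, polar_comm QK f z, hzf, smul_eq_mul, mul_one, hc, e]
    abel
  refine ⟨A, fun k l => ?_, fun h0 => hg1 ?_, g, hg, hrep⟩
  · have e0 : ∀ H, Algebra.trace F K (H * A H) = 0 := by
      intro H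
      obtain ⟨x, hx⟩ := hS.exists_coord hz0 H
      have := OQ_map_app g x
      rw [hrep, hx, hS.val, hS.val, qf_add, QuadraticMap.map_smul, hz, polar_smul_right,
        polar_comm QK x z, hx, smul_zero, add_zero, map_add, add_eq_left, smul_eq_mul,
        mul_comm] at this
      exact this
    have e := e0 (k + l)
    rw [map_add A, add_mul, mul_add, mul_add, map_add, map_add, map_add, e0, e0] at e
    linear_combination e
  · refine Subtype.ext (LinearEquiv.ext fun x => ?_)
    rw [hrep, h0, LinearMap.zero_apply, zero_smul, add_zero]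
    rfl

lemma finiteDim : FiniteDimensional F V := Module.Finite.trans K V

lemma kline_polar {y a b : V} (hy : QK y = 0) (ha : a ∈ kline F K y) (hb : b ∈ kline F K y) :
    polar Q a b = 0 := by
  obtain ⟨k, rfl⟩ := mem_kline.1 ha
  obtain ⟨l, rfl⟩ := mem_kline.1 hb
  rw [hS.polar_smul, polar_smul_right, hS.sing_iff.1 hy, smul_zero, mul_zero, map_zero]

lemma img_polar {g : OQ Q} {z a b : V} (hz : QK z = 0) (ha : a ∈ img K g z) (hb : b ∈ img K g z) :
    polar Q a b = 0 := by
  obtain ⟨k, rfl⟩ := mem_img.1 ha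
  obtain ⟨l, rfl⟩ := mem_img.1 hb
  rw [OQ_polar]
  exact hS.kline_polar hz (mem_kline.2 ⟨k, rfl⟩) (mem_kline.2 ⟨l, rfl⟩)

lemma prime : (finrank F K).Prime := by rw [hS.rank]; decide

lemma finrank_perp_span_pair {d f : V} :
    1 ≤ finrank K (perpSub QK (Submodule.span K ({d, f} : Set V))) := by
  have h1 : finrank K (Submodule.span K ({d, f} : Set V)) ≤ 2 := by
    classical
    have h0 := finrank_span_finset_le_card (R := K) ({d, f} : Finset V)
    unfold Set.finrank at h0
    rw [Finset.coe_pair] at h0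
    exact h0.trans Finset.card_le_two
  have := hS.perp_finrank (Submodule.span K ({d, f} : Set V))
  rw [hS.dim] at this
  omega

lemma exists_perp_not_line (z : V) : ∃ a, polar QK z a = 0 ∧ ∀ c : K, c • z ≠ a := by
  by_contra h
  push Not at h
  have hle : perpSub QK (K ∙ z) ≤ K ∙ z := fun a ha => by
    obtain ⟨c, hc⟩ := h a (ha z (Submodule.mem_span_singleton_self z))
    exact Submodule.mem_span_singleton.2 ⟨c, hc⟩
  have h4 := Submodule.finrank_mono hle
  have h5 := finrank_span_le_card ({z} : Set V) (R := K)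
  have h6 := hS.perp_finrank (K ∙ z)
  rw [hS.dim] at h6
  simp at h5
  omega

/-- The orthogonal of a hyperbolic plane is an anisotropic line. -/
lemma exists_mid {e f : V} (he : QK e = 0) (hf : QK f = 0) (hef : polar QK e f ≠ 0) :
    ∃ h, polar QK e h = 0 ∧ polar QK f h = 0 ∧ QK h ≠ 0 ∧
      ∀ x, x = (polar QK f x / polar QK f e) • e + (polar QK e x / polar QK e f) • f +
        (polar QK h x / polar QK h h) • h := by
  have hee : polar QK e e = 0 := hS.sing_iff.1 he
  have hff : polar QK f f = 0 := hS.sing_iff.1 hf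
  have hfe : polar QK f e ≠ 0 := by rwa [polar_comm]
  obtain ⟨h, hh, hh0⟩ := (Submodule.ne_bot_iff (perpSub QK (Submodule.span K ({e, f} : Set V)))).1
    (fun hb => by have := hS.finrank_perp_span_pair (d := e) (f := f); rw [hb, finrank_bot] at this; omega)
  have h1 : polar QK e h = 0 := hh e (Submodule.subset_span (Set.mem_insert _ _))
  have h2 : polar QK f h = 0 := hh f (Submodule.subset_span (Set.mem_insert_of_mem _ rfl))
  have hproj : ∀ v : V, ∃ v', polar QK e v' = 0 ∧ polar QK f v' = 0 ∧
      v' = v - (polar QK f v / polar QK f e) • e - (polar QK e v / polar QK e f) • f := by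
    intro v
    refine ⟨_, ?_, ?_, rfl⟩
    · rw [polar_sub_right, polar_sub_right, polar_smul_right, polar_smul_right, hee, smul_zero,
        sub_zero, smul_eq_mul, div_mul_cancel₀ _ hef, sub_self]
    · rw [polar_sub_right, polar_sub_right, polar_smul_right, polar_smul_right, hff, smul_zero,
        sub_zero, smul_eq_mul, div_mul_cancel₀ _ hfe, sub_self]
  -- the orthogonal is a line
  have hline : ∀ v, polar QK e v = 0 → polar QK f v = 0 → ∃ c : K, c • h = v := by
    intro v hv1 hv2
    by_contra hn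
    have hli : LinearIndependent K ![h, v] := (LinearIndependent.pair_iff' hh0).2 fun c hc => hn ⟨c, hc⟩
    have hsub : Submodule.span K (Set.range ![h, v]) ≤
        perpSub QK (Submodule.span K ({e, f} : Set V)) := by
      rw [Submodule.span_le]
      rintro _ ⟨i, rfl⟩ n hn'
      obtain ⟨a, b, rfl⟩ := Submodule.mem_span_pair.1 hn'
      fin_cases i <;> simp [polar_add_left, polar_smul_left, h1, h2, hv1, hv2]
    have h6 := Submodule.finrank_mono hsub
    rw [finrank_span_eq_card hli, Fintype.card_fin] at h6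
    have h7 := hS.perp_finrank (Submodule.span K ({e, f} : Set V))
    have h8 : 2 ≤ finrank K (Submodule.span K ({e, f} : Set V)) := by
      have hli' : LinearIndependent K ![e, f] := LinearIndependent.pair_iff.2 fun a b hab => by
        have e1 := congrArg (polar QK f) hab
        have e2 := congrArg (polar QK e) hab
        simp [polar_add_right, polar_smul_right, hff, hfe] at e1
        simp [polar_add_right, polar_smul_right, hee, hef] at e2
        exact ⟨e1, e2⟩
      have h9 : Submodule.span K (Set.range ![e, f]) = Submodule.span K ({e, f} : Set V) := by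
        rw [Matrix.range_cons, Matrix.range_cons, Matrix.range_empty, Set.union_empty,
          Set.singleton_union]
      rw [← h9, finrank_span_eq_card hli', Fintype.card_fin]
    rw [hS.dim] at h7
    omega
  have hQh : QK h ≠ 0 := by
    intro h0
    refine hh0 (hS.nondeg h fun v => ?_)
    obtain ⟨v', hv1, hv2, hv'⟩ := hproj v
    obtain ⟨c, hc⟩ := hline v' hv1 hv2
    have e1 : v = v' + (polar QK f v / polar QK f e) • e + (polar QK e v / polar QK e f) • f := by
      rw [hv']; abel
    rw [e1, ← hc]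
    simp [polar_add_right, polar_smul_right, polar_comm QK h e, polar_comm QK h f, h1, h2,
      hS.sing_iff.1 h0]
  have hhh : polar QK h h ≠ 0 := fun e0 => hQh (hS.sing_iff.2 e0)
  refine ⟨h, h1, h2, hQh, fun x => ?_⟩
  obtain ⟨v', hv1, hv2, hv'⟩ := hproj x
  obtain ⟨c, hc⟩ := hline v' hv1 hv2
  have e1 : polar QK h x = c * polar QK h h := by
    have e2 := congrArg (polar QK h) (hc.trans hv')
    simp [polar_sub_right, polar_smul_right, polar_comm QK h e, polar_comm QK h f, h1, h2] at e2
    rw [polar_self, two_smul, ← two_mul]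
    exact e2.symm
  rw [e1, mul_div_assoc, div_self hhh, mul_one, hc, hv']
  abel

/-- Scalings of a hyperbolic pair by squares. -/
lemma exists_levi {e f : V} (he : QK e = 0) (hf : QK f = 0) (hef : polar QK e f ≠ 0)
    {m : K} (hm : m ≠ 0) :
    ∃ g ∈ M, IsLin K g ∧ g.1 e = (m * m) • e ∧ g.1 f = (m * m)⁻¹ • f ∧
      ∀ x, polar QK e x = 0 → polar QK f x = 0 → g.1 x = x := by
  haveI := hS.finiteF
  haveI := hS.finiteV
  obtain ⟨l, hl'⟩ : ∃ l, l = m * m := ⟨_, rfl⟩
  have hl : l ≠ 0 := hl' ▸ mul_ne_zero hm hm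
  rw [← hl']
  obtain ⟨f', hf'⟩ : ∃ f', f' = (polar QK e f)⁻¹ • f := ⟨_, rfl⟩
  have hff' : QK f' = 0 := by rw [hf', QuadraticMap.map_smul, hf, smul_zero]
  have hef' : polar QK e f' = 1 := by
    rw [hf', polar_smul_right, smul_eq_mul, inv_mul_cancel₀ hef]
  have hee : polar QK e e = 0 := hS.sing_iff.1 he
  have hf'f' : polar QK f' f' = 0 := hS.sing_iff.1 hff'
  have h1 : QK (e - f') = -1 := by rw [qf_sub, he, hff', hef']; ring
  have h2 : QK (e - l • f') = -l := by
    rw [qf_sub, QuadraticMap.map_smul, he, hff', polar_smul_right, hef']; simp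
  let a : {x : V // QK x ≠ 0} := ⟨e - f', by rw [h1]; exact neg_ne_zero.2 one_ne_zero⟩
  let b : {x : V // QK x ≠ 0} := ⟨e - l • f', by rw [h2]; exact neg_ne_zero.2 hl⟩
  have hmem : Forms.refls QK [a, b] ∈ commutator (OQ QK) := by
    rw [Forms.refls_mem_commutator_iff hS.nondeg hS.notExc]
    refine ⟨⟨1, rfl⟩, ⟨m, ?_⟩⟩
    simp [a, b, h1]
    rw [← hl'] at *
    simp [h2]
  obtain ⟨g, hg, hgx⟩ := hS.lin _ hmem
  refine ⟨g, hg, fun k x => ?_, ?_, ?_, fun x hx hx' => ?_⟩
  · rw [hgx, hgx, LinearEquiv.map_smul]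
  · rw [hgx]
    simp only [Forms.refls_cons, Forms.refls_nil, mul_one, Subgroup.coe_mul, LinearEquiv.mul_apply,
      reflQ_apply, a, b, h1, h2, polar_sub_right, polar_sub_left, polar_smul_left,
      polar_smul_right, smul_eq_mul, hee, hef', hf'f', polar_comm QK f' e]
    match_scalars <;> field_simp <;> ring
  · have hfe : f = polar QK e f • f' := by rw [hf', smul_inv_smul₀ hef]
    have key : g.1 f' = l⁻¹ • f' := by
      rw [hgx]
      simp only [Forms.refls_cons, Forms.refls_nil, mul_one, Subgroup.coe_mul,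
        LinearEquiv.mul_apply, reflQ_apply, a, b, h1, h2, polar_sub_right,
        polar_sub_left, polar_smul_left, polar_smul_right, smul_eq_mul, hee, hef', hf'f',
        polar_comm QK f' e]
      match_scalars <;> field_simp <;> ring
    rw [hgx] at key
    rw [hgx, hfe, LinearEquiv.map_smul, key, smul_comm]
  · have hx'' : polar QK f' x = 0 := by rw [hf', polar_smul_left, hx', smul_zero]
    rw [hgx]
    simp [Forms.refls_cons, Forms.refls_nil, reflQ_apply, a, b, polar_sub_left, polar_smul_left,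
      hx, hx'']

lemma exists_scale {z : V} (hz : QK z = 0) (hz0 : z ≠ 0) {m : K} (hm : m ≠ 0) :
    ∃ g ∈ M, IsLin K g ∧ g.1 z = (m * m) • z := by
  obtain ⟨f, hf, hzf⟩ := hS.exists_partner hz hz0
  obtain ⟨g, hg, hlin, hgz, -⟩ := hS.exists_levi hz hf (by rw [hzf]; exact one_ne_zero) hm
  exact ⟨g, hg, hlin, hgz⟩

/-- The linear elements of `M` are transitive on singular lines. -/
lemma exists_trans {z v : V} (hz : QK z = 0) (hz0 : z ≠ 0) (hv : QK v = 0) (hv0 : v ≠ 0) :
    ∃ g ∈ M, IsLin K g ∧ ∃ c : K, c ≠ 0 ∧ g.1 z = c • v := by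
  obtain ⟨u, hu, hzu, hvu⟩ : ∃ u, QK u = 0 ∧ polar QK z u ≠ 0 ∧ polar QK v u ≠ 0 := by
    obtain ⟨f, hf, hzf⟩ := hS.exists_partner hz hz0
    obtain ⟨f', hf', hvf⟩ := hS.exists_partner hv hv0
    have hzz : polar QK z z = 0 := hS.sing_iff.1 hz
    by_cases h1 : polar QK v f = 0
    swap
    · exact ⟨f, hf, by rw [hzf]; exact one_ne_zero, h1⟩
    by_cases h2 : polar QK z f' = 0
    swap
    · exact ⟨f', hf', h2, by rw [hvf]; exact one_ne_zero⟩
    by_cases h3 : polar QK z v = 0
    · refine ⟨f + (f' - polar QK f f' • z), ?_, ?_, ?_⟩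
      · rw [qf_add, qf_sub, polar_sub_right, polar_smul_right, polar_smul_right,
          QuadraticMap.map_smul, hf, hf', hz, polar_comm QK f' z, h2, polar_comm QK f z, hzf]
        simp
      · simp [polar_add_right, polar_sub_right, polar_smul_right, hzf, h2, hzz]
      · simp [polar_add_right, polar_sub_right, polar_smul_right, hvf, h1, polar_comm QK v z, h3]
    · obtain ⟨e, he1, he2, he, -⟩ := hS.exists_mid hz hv h3
      obtain ⟨c, hc⟩ : ∃ c, c = -QK e / polar QK z v := ⟨_, rfl⟩
      have hc0 : c ≠ 0 := by rw [hc]; exact div_ne_zero (neg_ne_zero.2 he) h3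
      refine ⟨z + c • v + e, ?_, ?_, ?_⟩
      · rw [qf_add, qf_add, QuadraticMap.map_smul, polar_add_left, polar_smul_left,
          polar_smul_right, hz, hv, he1, he2, hc]
        simp only [smul_eq_mul]
        field_simp
        ring
      · simpa [polar_add_right, polar_smul_right, hzz, he1] using mul_ne_zero hc0 h3
      · simpa [polar_add_right, polar_smul_right, hS.sing_iff.1 hv, he2, polar_comm QK v z]
          using h3
  haveI := hS.finiteV
  obtain ⟨z', hz'⟩ : ∃ z', z' = (polar QK u z)⁻¹ • z := ⟨_, rfl⟩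
  obtain ⟨v', hv'⟩ : ∃ v', v' = (polar QK u v)⁻¹ • v := ⟨_, rfl⟩
  rw [polar_comm] at hzu hvu
  obtain ⟨a, ha, -, -, hmap⟩ := exists_siegel_pair (Q := QK) hu (y := z') (z := v')
    (by rw [hz', QuadraticMap.map_smul, hz, smul_zero])
    (by rw [hv', QuadraticMap.map_smul, hv, smul_zero])
    (by rw [hz', polar_smul_right, smul_eq_mul, inv_mul_cancel₀ hzu])
    (by rw [hv', polar_smul_right, smul_eq_mul, inv_mul_cancel₀ hvu])
  obtain ⟨g, hg, hgx⟩ := hS.exists_siegel hu ha
  have hgx' : ∀ x, g.1 x = (siegel QK hu ha).1 x := fun x => by rw [hgx, siegel_apply]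
  refine ⟨g, hg, fun k x => by rw [hgx', hgx', LinearEquiv.map_smul],
    polar QK u z * (polar QK u v)⁻¹, mul_ne_zero hzu (inv_ne_zero hvu), ?_⟩
  rw [show z = polar QK u z • z' by rw [hz', smul_inv_smul₀ hzu], hgx', LinearEquiv.map_smul, hmap,
    hv', smul_smul]
  rw [polar_smul_right, smul_eq_mul, hz', polar_smul_right, smul_eq_mul, inv_mul_cancel₀ hzu,
    mul_one]

lemma allSk_all {z : V} (hz : QK z = 0) (hz0 : z ≠ 0) (h : AllSk QK M z) {v : V} (hv : QK v = 0)
    (hv0 : v ≠ 0) : AllSk QK M v := fun a b => by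
  obtain ⟨g, hg, hlin, c, hc, hgz⟩ := hS.exists_trans hz hz0 hv hv0
  obtain ⟨e, he, hex⟩ := hS.elt_map hg hlin (h (a / c) (b / c))
  refine ⟨e, he, fun x => ?_⟩
  rw [hex, hgz, polar_smul_left, smul_eq_mul, smul_smul, Sk_apply, Sk_apply, sub_mul,
    smul_mul_assoc, smul_mul_assoc, div_mul_cancel₀ _ hc, div_mul_cancel₀ _ hc]
  congr 2
  congr 1
  · congr 2; field_simp
  · congr 2; field_simp

end Setup

end Cfsg.Agent.MaxSub.OrthExtNine
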