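import Cfsg.Agent.MaxSub.OrthExtNine.Pairs

/-!
An overgroup not contained in the semilinear group has an element fixing a hyperplane pointwise:
otherwise its images of singular lines would cover too many vectors.
-/

set_option autoImplicit false
set_option linter.unusedSectionVars false
set_option linter.style.haveILetI false

namespace Cfsg.Agent.MaxSub.OrthExtNine

open QuadraticMap Module Cfsg.Agent.Classical Cfsg.Agent.OrthGen
open Cfsg.Agent.MaxSub.OrthExt (Sk Sk_apply IsSkew Elt Cent AllSk IsLin exists_two_squares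
  exists_common_zero img mem_img finrank_img kline_eq)
open Cfsg.Agent.MaxSub.ExtField (kline mem_kline self_mem_kline smul_mem_kline finrank_kline)

universe u v w

variable {F : Type u} {K : Type v} {V : Type w} [Field F] [Field K] [Algebra F K] [AddCommGroup V]
  [Module F V] [Module K V] [IsScalarTower F K V] [Finite K] [FiniteDimensional F K]
  [FiniteDimensional K V] {Q : QuadraticForm F V}

/-- Semilinear elements. -/
def IsSemi (K : Type v) [Field K] [Module K V] (g : OQ Q) : Prop :=
  ∀ k : K, ∃ k' : K, ∀ x, g.1 (k • x) = k' • g.1 x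

namespace Setup

variable {QK : QuadraticForm K V} {M : Subgroup (OQ Q)} (hS : Setup QK M)
include hS

variable (hno : ∀ v, QK v = 0 → v ≠ 0 → ¬ Cent QK M v)
include hno

/-- Members are equal as soon as they meet. -/
lemma member_eq {g₁ g₂ : OQ Q} (h1 : g₁ ∈ M) (h2 : g₂ ∈ M) {z₁ z₂ : V} (hz₁ : QK z₁ = 0)
    (hz₁' : z₁ ≠ 0) (hz₂ : QK z₂ = 0) (hz₂' : z₂ ≠ 0) {k l : K} (hk : k ≠ 0)
    (he : g₁.1 (k • z₁) = g₂.1 (l • z₂)) : img K (g₂⁻¹ * g₁) z₁ = kline F K z₂ := by
  by_contra hne
  obtain ⟨v, hv, hv0, hC⟩ := hS.cent_of_pair (mul_mem (inv_mem h2) h1) hz₁ hz₁' hz₂ hz₂' hne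
    ((Submodule.ne_bot_iff _).2 ⟨l • z₂, ⟨mem_img.2 ⟨k, by
      show g₂.1.symm (g₁.1 (k • z₁)) = _
      rw [he, LinearEquiv.symm_apply_apply]⟩, mem_kline.2 ⟨l, rfl⟩⟩, fun e => by
      rw [e, map_zero] at he
      exact smul_ne_zero hk hz₁' (g₁.1.map_eq_zero_iff.1 he)⟩)
  exact hno v hv hv0 hC

/-- An element carrying a line onto a line is semilinear. -/
lemma semi_of_member {g : OQ Q} (hg : g ∈ M) {z z' : V} (hz : QK z = 0) (hz0 : z ≠ 0)
    (hz' : QK z' = 0) (hz'0 : z' ≠ 0) (h : img K g z = kline F K z') : IsSemi K g := by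
  have hl : ∀ k : K, ∃ k' : K, g.1 (k • z) = k' • z' := fun k => by
    obtain ⟨k', hk'⟩ := mem_kline.1 (h.le (mem_img.2 ⟨k, rfl⟩))
    exact ⟨k', hk'.symm⟩
  rcases hS.key hg hz hz0 hz' hz'0 hl with hC | ⟨θ, hθ⟩
  · exact absurd hC (hno z' hz' hz'0)
  obtain ⟨c, hc⟩ := hl 1
  rw [one_smul] at hc
  rcases hS.cent_or_semilinear hg hz hz0 (by rw [hc, QuadraticMap.map_smul, hz', smul_zero]) θ hθ
    with hC | hall
  · exact absurd hC (hno z hz hz0)
  · exact fun k => ⟨θ k, hall k⟩

omit hno in
lemma semi_mul {a b : OQ Q} (ha : IsSemi K a) (hb : IsSemi K b) : IsSemi K (a * b) := fun k => by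
  obtain ⟨k', hk'⟩ := hb k
  obtain ⟨k'', hk''⟩ := ha k'
  exact ⟨k'', fun x => by
    rw [Subgroup.coe_mul, LinearEquiv.mul_apply, LinearEquiv.mul_apply, hk', hk'']⟩

omit hno in
lemma semi_inv {a : OQ Q} (ha : IsSemi K a) : IsSemi K a⁻¹ := by
  obtain ⟨x₀, hx₀⟩ : ∃ x : V, x ≠ 0 := by
    haveI : Nontrivial V := Module.nontrivial_of_finrank_pos (R := K) (by rw [hS.dim]; norm_num)
    exact exists_ne 0
  choose τ hτ using ha
  have hinj : Function.Injective τ := fun k l e =>
    smul_left_injective K hx₀ (a.1.injective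
      (show a.1 (k • x₀) = a.1 (l • x₀) by rw [hτ, hτ, e]))
  intro k
  obtain ⟨l, hl⟩ := Finite.injective_iff_surjective.1 hinj k
  refine ⟨l, fun x => a.1.injective ?_⟩
  show a.1 (a.1.symm (k • x)) = a.1 (l • a.1.symm x)
  rw [hτ, LinearEquiv.apply_symm_apply, LinearEquiv.apply_symm_apply, hl]

/-- The conjugate of a linear element fixing a line pointwise is not semilinear. -/
lemma conj_not_semi {g : OQ Q} (hg : g ∈ M) (hout : ¬ IsSemi K g) {z : V} (hz : QK z = 0)
    (hz0 : z ≠ 0) {t : OQ Q} (ht : t ∈ M) (htz : ∀ k : K, t.1 (k • z) = k • z)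
    (ht2 : t * t ≠ 1) : ¬ IsSemi K (g⁻¹ * t * g) := by
  intro hsemi
  classical
  haveI := hS.finiteF
  haveI := hS.finiteV
  haveI := hS.finiteDim
  obtain ⟨h, hh⟩ : ∃ h, h = g⁻¹ * t * g := ⟨_, rfl⟩
  rw [← hh] at hsemi
  have hhM : h ∈ M := hh ▸ mul_mem (mul_mem (inv_mem hg) ht) hg
  have hhx : ∀ x, h.1 x = g.1.symm (t.1 (g.1 x)) := fun x => by rw [hh]; rfl
  obtain ⟨W, hW⟩ : ∃ W : K → V, ∀ k, W k = g.1.symm (k • z) := ⟨_, fun k => rfl⟩
  have hfix : ∀ k, h.1 (W k) = W k := fun k => by
    rw [hhx, hW, LinearEquiv.apply_symm_apply, htz]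
  have hW1 : W 1 ≠ 0 := fun e => hz0 (by
    rw [hW, one_smul] at e
    exact g.1.symm.map_eq_zero_iff.1 e)
  have hmeet : ∀ w k, w ≠ 0 → W k = w → QK w = 0 → False := by
    intro w k hw0 hw hq
    have e := hS.member_eq hno hg (one_mem M) hq hw0 hz hz0 (one_ne_zero (α := K)) (l := k) (by
      show g.1 ((1 : K) • w) = k • z
      rw [one_smul, ← hw, hW, LinearEquiv.apply_symm_apply])
    rw [inv_one, one_mul] at e
    exact hout (hS.semi_of_member hno hg hq hw0 hz hz0 e)
  choose τ hτ using hsemi
  by_cases hlin : ∀ k, τ k = k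
  · by_cases hline : ∀ k, ∃ c : K, c • W 1 = W k
    · refine hmeet (W 1) 1 hW1 rfl (hS.sing_iff.2 (hS.ext_tr fun c => ?_))
      rw [mul_zero, map_zero, ← hS.polar_smul]
      have hsurj : ∃ j, W j = c • W 1 := by
        choose c' hc' using hline
        have hinj : Function.Injective c' := fun a b e => by
          have e1 : W a = W b := (hc' a).symm.trans ((congrArg (· • W 1) e).trans (hc' b))
          rw [hW, hW] at e1
          exact smul_left_injective K hz0 (g.1.symm.injective e1)
        obtain ⟨j, hj⟩ := Finite.injective_iff_surjective.1 hinj c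
        exact ⟨j, by rw [← hc', hj]⟩
      obtain ⟨j, hj⟩ := hsurj
      rw [← hj, hW, hW, ← OQ_polar g, LinearEquiv.apply_symm_apply, LinearEquiv.apply_symm_apply]
      exact hS.kline_polar hz (mem_kline.2 ⟨j, rfl⟩) (mem_kline.2 ⟨1, rfl⟩)
    push Not at hline
    obtain ⟨k, hk⟩ := hline
    have hli : LinearIndependent K ![W 1, W k] :=
      (LinearIndependent.pair_iff' hW1).2 hk
    obtain ⟨U, hUdef⟩ : ∃ U, U = Submodule.span K (Set.range ![W 1, W k]) := ⟨_, rfl⟩
    have hU2 : finrank K U = 2 := by rw [hUdef, finrank_span_eq_card hli, Fintype.card_fin]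
    let hlinmap : V →ₗ[K] V :=
      { toFun := h.1
        map_add' := map_add h.1
        map_smul' := fun c x => by rw [RingHom.id_apply, hτ, hlin] }
    have hUfix : ∀ x ∈ U, h.1 x = x := by
      intro x hx
      rw [hUdef] at hx
      refine LinearMap.eqOn_span (f := hlinmap) (g := LinearMap.id) ?_ hx
      rintro _ ⟨i, rfl⟩
      fin_cases i
      · exact hfix 1
      · exact hfix k
    obtain ⟨a, ha, ha0⟩ := (Submodule.ne_bot_iff (perpSub QK U)).1 (fun hb => by
      have := hS.perp_finrank U
      rw [hb, finrank_bot, hU2, hS.dim] at this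
      omega)
    have hperp : ∀ x, polar QK a x = 0 → x ∈ U := by
      intro x hx
      have e : perpSub QK (K ∙ a) = U := by
        refine (Submodule.eq_of_le_of_finrank_le (fun y hy n hn => ?_) ?_).symm
        · obtain ⟨c, rfl⟩ := Submodule.mem_span_singleton.1 hn
          show polar QK (c • a) y = 0
          rw [polar_smul_left, polar_comm, show polar QK y a = 0 from ha y hy, smul_zero]
        · rw [hS.perp_finrank, finrank_span_singleton ha0, hU2, hS.dim]
      rw [← e]
      intro n hn
      obtain ⟨c, rfl⟩ := Submodule.mem_span_singleton.1 hn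
      show polar QK (c • a) x = 0
      rw [polar_smul_left, hx, smul_zero]
    by_cases hQa : QK a = 0
    · refine hno a hQa ha0 ⟨h, hhM, fun e => ht2 ?_, fun y hy => hUfix y (hperp y hy)⟩
      have e' : t = g * h * g⁻¹ := by rw [hh]; group
      rw [e', e]; group
    have hform : ∀ x y, polar QK (h.1 x) (h.1 y) = polar QK x y := fun x y =>
      hS.polar_map_of_lin (fun c w => by rw [hτ, hlin]) x y
    have haa : polar QK a a ≠ 0 := fun e => hQa (hS.sing_iff.2 e)
    have hdec : ∀ x, ∃ u ∈ U, x = u + (polar QK a x / polar QK a a) • a := fun x =>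
      ⟨x - (polar QK a x / polar QK a a) • a, hperp _ (by
        rw [polar_sub_right, polar_smul_right, smul_eq_mul, div_mul_cancel₀ _ haa, sub_self]),
        (sub_add_cancel _ _).symm⟩
    have hha : ∀ u ∈ U, polar QK (h.1 a) u = 0 := fun u hu => by
      rw [← hUfix u hu, hform, polar_comm]
      exact ha u hu
    obtain ⟨c, hc⟩ : ∃ c, c = polar QK a (h.1 a) / polar QK a a := ⟨_, rfl⟩
    have hca : h.1 a = c • a := by
      obtain ⟨u, hu, e⟩ := hdec (h.1 a)
      rw [← hc] at e
      have hu0 : u = 0 := hS.nondeg u fun x => by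
        obtain ⟨u', hu', ex⟩ := hdec x
        have e1 : polar QK u u' = 0 := by
          have e2 := hha u' hu'
          rw [e, polar_add_left, polar_smul_left, polar_comm QK a u',
            show polar QK u' a = 0 from ha u' hu', smul_zero, add_zero] at e2
          exact e2
        rw [ex, polar_add_right, polar_smul_right, e1, show polar QK u a = 0 from ha u hu,
          smul_zero, add_zero]
      rw [e, hu0, zero_add]
    have hcc : c * c = 1 := by
      have e := hform a a
      rw [hca, polar_smul_left, polar_smul_right, smul_eq_mul, smul_eq_mul, ← mul_assoc] at e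
      exact (mul_eq_right₀ haa).1 e
    refine ht2 ?_
    have e1 : h * h = 1 := Subtype.ext (LinearEquiv.ext fun x => by
      obtain ⟨u, hu, e⟩ := hdec x
      show h.1 (h.1 x) = x
      rw [e, map_add, hUfix u hu, hτ, hlin, hca, map_add, hUfix u hu, hτ, hlin, hτ, hlin, hca,
        smul_smul c c, hcc, one_smul])
    have e' : t = g * h * g⁻¹ := by rw [hh]; group
    rw [e', show g * h * g⁻¹ * (g * h * g⁻¹) = g * (h * h) * g⁻¹ by group, e1]
    group
  push Not at hlin
  obtain ⟨k₀, hk₀⟩ := hlin
  obtain ⟨θ, hθ⟩ : ∃ θ : K →ₐ[F] K, ∀ k, θ k = τ k := by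
    have hu : ∀ {p q : K}, (∀ x, p • h.1 x = q • h.1 x) → p = q := fun e =>
      smul_left_injective K hW1 (show _ • W 1 = _ • W 1 by
        have := e (h.1.symm (W 1))
        simpa using this)
    let f : K →ₗ[F] K :=
      { toFun := τ
        map_add' := fun a b => hu fun x => by rw [← hτ, add_smul, map_add, hτ, hτ, add_smul]
        map_smul' := fun s a => hu fun x => by
          rw [← hτ, RingHom.id_apply, smul_assoc, map_smul, hτ, ← smul_assoc] }
    refine ⟨AlgHom.ofLinearMap f (hu fun x => by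
        show τ 1 • _ = _
        rw [← hτ, one_smul, one_smul])
      (fun a b => hu fun x => by
        show τ (a * b) • _ = (τ a * τ b) • _
        rw [← hτ, mul_smul, hτ, hτ, mul_smul]), fun k => rfl⟩
  have hfixF : ∀ k : K, θ k = k → ∃ c : F, k = algebraMap F K c := by
    intro k hk
    let S : Subalgebra F K := AlgHom.equalizer θ (AlgHom.id F K)
    haveI := Subalgebra.isSimpleOrder_of_finrank_prime F K hS.prime
    rcases eq_bot_or_eq_top S with hb | htop
    · have hk' : k ∈ S := hk
      rw [hb, Algebra.mem_bot] at hk'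
      obtain ⟨c, hc⟩ := hk'
      exact ⟨c, hc.symm⟩
    · exfalso
      have : k₀ ∈ S := htop ▸ Algebra.mem_top
      exact hk₀ ((hθ k₀).symm.trans this)
  let θe : K ≃ₐ[F] K := AlgEquiv.ofBijective θ
    (Finite.injective_iff_bijective.1 θ.toRingHom.injective)
  have hval : ∀ j j', ∃ c : F, polar QK (W j) (W j') = algebraMap F K c := by
    intro j j'
    refine hfixF _ (hS.ext_tr fun k => ?_)
    obtain ⟨l, rfl⟩ := θe.surjective k
    show Algebra.trace F K (θe l * θe (polar QK (W j) (W j'))) = _
    rw [← map_mul, Algebra.trace_eq_of_algEquiv, ← hS.polar_smul, ← OQ_polar h, hτ, hfix, hfix,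
      hS.polar_smul, ← hθ]
    rfl
  obtain ⟨H, hH⟩ := Algebra.trace_surjective F K (1 : F)
  obtain ⟨k, hk0, hk⟩ := exists_common_zero (F := F) (W := K) (ι := Fin 1) (fun _ => 0)
    (fun _ => LinearMap.mk₂ F (fun a b => Algebra.trace F K (H * polar QK (W a) (W b)))
      (fun a a' b => by rw [hW, hW, hW, add_smul, map_add, polar_add_left, mul_add, map_add, hW])
      (fun s a b => by
        rw [hW, hW, smul_assoc, map_smul, ← algebraMap_smul K s (g.1.symm (a • z)), polar_smul_left,
          smul_eq_mul, mul_left_comm, ← Algebra.smul_def, map_smul, hW a])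
      (fun a b b' => by rw [hW b, hW b', hW (b + b'), add_smul, map_add, polar_add_right, mul_add,
          map_add])
      (fun s a b => by
        rw [hW b, hW (s • b), smul_assoc, map_smul, ← algebraMap_smul K s (g.1.symm (b • z)),
          polar_smul_right, smul_eq_mul, mul_left_comm, ← Algebra.smul_def, map_smul]))
    (by rw [Fintype.card_fin, hS.rank]; norm_num)
  have e := hk 0
  simp only [LinearMap.zero_apply, LinearMap.mk₂_apply, zero_add] at e
  obtain ⟨c, hc⟩ := hval k k
  rw [hc, mul_comm, ← Algebra.smul_def, map_smul, hH, smul_eq_mul, mul_one] at e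
  refine hmeet (W k) k (fun e0 => ?_) rfl (hS.sing_iff.2 (by rw [hc, e, map_zero]))
  rw [hW] at e0
  exact smul_ne_zero hk0 hz0 (g.1.symm.map_eq_zero_iff.1 e0)

omit hno in
/-- Something outside the semilinear group gives an element fixing a hyperplane. -/
theorem exists_cent {g : OQ Q} (hg : g ∈ M) (hout : ¬ IsSemi K g) {z : V} (hz : QK z = 0)
    (hz0 : z ≠ 0) : ∃ v, QK v = 0 ∧ v ≠ 0 ∧ Cent QK M v := by
  classical
  by_contra hcon
  have hno : ∀ v, QK v = 0 → v ≠ 0 → ¬ Cent QK M v := fun v h1 h2 h3 => hcon ⟨v, h1, h2, h3⟩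
  haveI := hS.finiteF
  haveI := hS.finiteV
  obtain ⟨f, hf, hzf⟩ := hS.exists_partner hz hz0
  obtain ⟨h, hzh, hfh, hQh, -⟩ := hS.exists_mid hz hf (by rw [hzf]; exact one_ne_zero)
  have hzz : polar QK z z = 0 := hS.sing_iff.1 hz
  have hhh : polar QK h h ≠ 0 := fun e => hQh (hS.sing_iff.2 e)
  have ha : ∀ α : K, polar QK z (α • h) = 0 := fun α => by
    rw [polar_smul_right, hzh, smul_zero]
  choose T hTM hTx using fun α : K => hS.exists_siegel hz (ha α)
  have hTlin : ∀ α, IsLin K (T α) := fun α k x => by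
    rw [hTx, hTx]
    simp only [polar_smul_right, smul_eq_mul]
    module
  have hTz : ∀ α (k : K), (T α).1 (k • z) = k • z := fun α k => by
    rw [hTx]
    simp [polar_smul_right, polar_smul_left, hzz, polar_comm QK h z, hzh]
  have hTmul : ∀ α β, T α * T β = T (α + β) := fun α β =>
    Subtype.ext (LinearEquiv.ext fun x => by
      show (T α).1 ((T β).1 x) = _
      rw [hTx β, hTx, hTx]
      simp only [polar_add_right, polar_sub_right, polar_smul_right, polar_smul_left, smul_eq_mul,
        QuadraticMap.map_smul, hzz, hzh, polar_comm QK h z, polar_self, two_smul]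
      module)
  have hTf : ∀ α, (T α).1 f = f + α • h - (α * α * QK h) • z := fun α => by
    rw [hTx, hzf, polar_smul_left, polar_comm QK h f, hfh, QuadraticMap.map_smul]
    simp
  have hTne : ∀ α, α ≠ 0 → T α ≠ 1 := fun α hα e => by
    have e1 := congrArg (polar QK h) (hTf α)
    rw [e] at e1
    simp [polar_add_right, polar_sub_right, polar_smul_right, polar_comm QK h z, hzh,
      polar_comm QK h f, hfh, hα, hS.twoK, hQh] at e1
  let γ : Option K → OQ Q := fun o => o.elim 1 fun α => T α * g
  have hγM : ∀ o, γ o ∈ M := by rintro (_ | α); exacts [one_mem M, mul_mem (hTM α) hg]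
  let pt : Option K → V := fun o => o.elim z fun α => (T α).1 f
  have hpt : ∀ o, QK (pt o) = 0 ∧ pt o ≠ 0 := by
    rintro (_ | α)
    · exact ⟨hz, hz0⟩
    · have hne : (T α).1 f ≠ 0 := fun e => by
        have := congrArg (polar QK z) (hTf α)
        simp [e, polar_add_right, polar_sub_right, polar_smul_right, hzf, hzh, hzz] at this
      refine ⟨?_, hne⟩
      show QK ((T α).1 f) = 0
      rw [hTf, qf_sub, qf_add, QuadraticMap.map_smul, QuadraticMap.map_smul, polar_smul_right,
        polar_smul_right, polar_add_left, polar_smul_left, hf, hz, hfh, polar_comm QK f z, hzf,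
        polar_comm QK h z, hzh]
      simp only [smul_eq_mul]
      ring
  have hsemiT : ∀ α, IsSemi K (T α) := fun α k => ⟨k, hTlin α k⟩
  have hdiff : ∀ j j', j ≠ j' → ¬ IsSemi K ((γ j')⁻¹ * γ j) := by
    rintro (_ | α) (_ | β) hne hs
    · exact hne rfl
    · refine hout ?_
      have := hS.semi_mul (hS.semi_inv (hsemiT β)) (hS.semi_inv hs)
      simpa [γ] using this
    · refine hout ?_
      have := hS.semi_mul (hS.semi_inv (hsemiT α)) hs
      simpa [γ] using this
    · have hαβ : α - β ≠ 0 := sub_ne_zero.2 fun e => hne (congrArg some e)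
      have e : (γ (some β))⁻¹ * γ (some α) = g⁻¹ * T (α - β) * g := by
        show (T β * g)⁻¹ * (T α * g) = _
        rw [show T α = T β * T (α - β) by rw [hTmul, add_sub_cancel]]
        group
      rw [e] at hs
      refine hS.conj_not_semi hno hg hout hz hz0 (hTM _) (hTz _) ?_ hs
      rw [hTmul]
      exact hTne _ (by rw [← two_mul]; exact mul_ne_zero hS.twoK hαβ)
  let ι : Option K × Option K × Kˣ → V := fun p => (γ p.1).1 ((p.2.2 : K) • pt p.2.1)
  have hι0 : ∀ p, ι p ≠ 0 := fun p e =>
    smul_ne_zero p.2.2.ne_zero (hpt p.2.1).2 ((γ p.1).1.map_eq_zero_iff.1 e)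
  have hι : Function.Injective ι := by
    rintro ⟨j, i, k⟩ ⟨j', i', k'⟩ he
    change (γ j).1 ((k : K) • pt i) = (γ j').1 ((k' : K) • pt i') at he
    obtain rfl : j = j' := by
      by_contra hne
      refine hdiff j j' hne (hS.semi_of_member hno (mul_mem (inv_mem (hγM j')) (hγM j)) (hpt i).1
        (hpt i).2 (hpt i').1 (hpt i').2
        (hS.member_eq hno (hγM j) (hγM j') (hpt i).1 (hpt i).2 (hpt i').1 (hpt i').2 k.ne_zero he))
    have e := (γ j).1.injective he
    obtain rfl : i = i' := by
      rcases i with _ | α <;> rcases i' with _ | β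
      · rfl
      all_goals
        have e1 := congrArg (polar QK z) e
        simp [pt, hTf, polar_add_right, polar_sub_right, polar_smul_right, hzz, hzh, hzf, Units.ne_zero] at e1
      all_goals first
        | exact absurd e1.symm (Units.ne_zero _)
        | skip
      rw [e1] at e
      have e2 := congrArg (polar QK h) e
      simp [pt, hTf, polar_add_right, polar_sub_right, polar_smul_right, polar_comm QK h z, hzh,
        polar_comm QK h f, hfh, hS.twoK, hQh] at e2
      rw [e2]
    rw [Units.ext (smul_left_injective K (hpt i).2 e)]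
  let e : Option (Option K × Option K × Kˣ) → V := fun o => o.elim 0 ι
  have he : Function.Injective e := by
    rintro (_ | p) (_ | p') h'
    · rfl
    · exact absurd h'.symm (hι0 p')
    · exact absurd h' (hι0 p)
    · exact congrArg some (hι h')
  have hcard := Nat.card_le_card_of_injective e he
  rw [Finite.card_option, Nat.card_prod, Nat.card_prod, Finite.card_option, Nat.card_units,
    Module.natCard_eq_pow_finrank (K := K) (V := V), hS.dim] at hcard
  obtain ⟨m, hm⟩ : ∃ m, Nat.card K = m + 2 :=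
    ⟨Nat.card K - 2, by have := Finite.one_lt_card (α := K); omega⟩
  rw [hm, show m + 2 - 1 = m + 1 by omega] at hcard
  ring_nf at hcard
  nlinarith

end Setup

end Cfsg.Agent.MaxSub.OrthExtNine
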