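import Cfsg.Agent.MaxSub.OrthExtNine.Key

/-!
One nonzero root element gives all of them: over a cubic extension the skew maps for the trace
form are parametrised by the field.
-/

set_option autoImplicit false
set_option linter.unusedSectionVars false
set_option linter.style.haveILetI false

namespace Cfsg.Agent.MaxSub.OrthExtNine

open QuadraticMap Module Cfsg.Agent.Classical Cfsg.Agent.OrthGen
open Cfsg.Agent.MaxSub.OrthExt (Sk Sk_apply IsSkew Elt Cent AllSk IsLin)

universe u v w

variable {F : Type u} {K : Type v} {V : Type w} [Field F] [Field K] [Algebra F K] [AddCommGroup V]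
  [Module F V] [Module K V] [IsScalarTower F K V] [Finite K] [FiniteDimensional F K]
  [FiniteDimensional K V] {Q : QuadraticForm F V}

/-- The skew map attached to `w` and an automorphism. -/
noncomputable def phi (σ : K ≃ₐ[F] K) (w : K) : K →ₗ[F] K :=
  LinearMap.mulLeft F (σ w) ∘ₗ (σ.toLinearMap ∘ₗ σ.toLinearMap) -
    LinearMap.mulLeft F (σ (σ w)) ∘ₗ σ.toLinearMap

lemma phi_apply (σ : K ≃ₐ[F] K) (w H : K) :
    phi σ w H = σ w * σ (σ H) - σ (σ w) * σ H := rfl

lemma phi_add (σ : K ≃ₐ[F] K) (w w' : K) : phi σ (w + w') = phi σ w + phi σ w' :=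
  LinearMap.ext fun H => by
    simp only [phi_apply, LinearMap.add_apply, map_add]
    ring

lemma phi_zero (σ : K ≃ₐ[F] K) : phi σ (0 : K) = 0 :=
  LinearMap.ext fun H => by simp [phi_apply]

lemma phi_scale (σ : K ≃ₐ[F] K) (hσ : ∀ x, σ (σ (σ x)) = x) (w l : K) :
    LinearMap.mulLeft F l ∘ₗ phi σ w ∘ₗ LinearMap.mulLeft F l = phi σ (σ l * σ (σ l) * w) :=
  LinearMap.ext fun H => by
    simp only [LinearMap.comp_apply, LinearMap.mulLeft_apply, phi_apply, map_mul, hσ]
    ring

/-- Over a cubic extension the trace is the sum of the conjugates. -/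
lemma exists_frobenius [Finite F] (hr : finrank F K = 3) :
    ∃ σ : K ≃ₐ[F] K, σ ≠ 1 ∧ (∀ x, σ (σ (σ x)) = x) ∧
      ∀ x, algebraMap F K (Algebra.trace F K x) = x + σ x + σ (σ x) := by
  have := Fintype.ofFinite F
  refine ⟨FiniteField.frobeniusAlgEquivOfAlgebraic F K, fun h => ?_, fun x => ?_, fun x => ?_⟩
  · have := FiniteField.orderOf_frobeniusAlgEquivOfAlgebraic F K
    rw [h, orderOf_one, hr] at this
    omega
  · have h1 := pow_orderOf_eq_one (FiniteField.frobeniusAlgEquivOfAlgebraic F K)
    rw [FiniteField.orderOf_frobeniusAlgEquivOfAlgebraic, hr] at h1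
    exact congrArg (fun g : K ≃ₐ[F] K => g x) h1
  · rw [FiniteField.algebraMap_trace_eq_sum_pow, hr]
    simp [Finset.sum_range_succ, pow_succ, pow_mul, Nat.card_eq_fintype_card]

/-- A subfield containing the multipliers is everything. -/
lemma subfield_eq_top [Finite F] (σ : K ≃ₐ[F] K) (hσ : ∀ x, σ (σ (σ x)) = x) (L : Subfield K)
    (hK : 10 ≤ Nat.card K) (hL : ∀ m : K, m ≠ 0 → σ (m * m) * σ (σ (m * m)) ∈ L) : L = ⊤ := by
  classical
  by_contra hne
  let f : Kˣ →* Kˣ := MonoidHom.mk'
    (fun m => Units.map (σ : K →* K) (m * m) * Units.map (σ : K →* K) (Units.map (σ : K →* K) (m * m)))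
    fun m m' => Units.ext (by simp [map_mul]; ring)
  have hf : ∀ m : Kˣ, ((f m : Kˣ) : K) = σ ((m : K) * m) * σ (σ ((m : K) * m)) := fun m => by
    simp [f]
  have hker : f.ker ≤ rootsOfUnity 4 K := by
    intro m hm
    rw [mem_rootsOfUnity]
    have e : σ ((m : K) * m) * σ (σ ((m : K) * m)) = 1 := by rw [← hf, MonoidHom.mem_ker.1 hm]; rfl
    obtain ⟨a, ha⟩ : ∃ a, a = (m : K) * m := ⟨_, rfl⟩
    rw [← ha] at e
    have e2 : σ (σ a) * a = 1 := by
      have := congrArg σ e
      rwa [map_mul, hσ, map_one] at this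
    have hfix : σ a = a := by
      have ha2 : σ (σ a) ≠ 0 := fun h => by simp [h] at e2
      refine mul_right_cancel₀ ha2 ?_
      rw [e, mul_comm, e2]
    rw [hfix, hfix] at e
    refine Units.ext ?_
    rw [Units.val_pow_eq_pow_val, Units.val_one, ← e, ha]
    ring
  have h4 : Nat.card f.ker ≤ 4 := by
    refine le_trans (Subgroup.card_le_of_le hker) ?_
    exact card_rootsOfUnity K 4
  have hrange : Nat.card f.range + 1 ≤ Nat.card L := by
    let e : Option f.range → L := fun o => o.elim 0 fun x => ⟨((x : Kˣ) : K), by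
      obtain ⟨m, hm⟩ := x.2
      rw [← hm, hf]
      exact hL _ m.ne_zero⟩
    have he : Function.Injective e := by
      rintro (_ | x) (_ | y) h
      · rfl
      · exact absurd (congrArg Subtype.val h).symm (y : Kˣ).ne_zero
      · exact absurd (congrArg Subtype.val h) (x : Kˣ).ne_zero
      · exact congrArg some (Subtype.ext (Units.ext (congrArg Subtype.val h :)))
    have := Nat.card_le_card_of_injective e he
    rwa [Finite.card_option] at this
  have hprod := Subgroup.card_mul_index f.ker
  rw [Subgroup.index_ker, Nat.card_units] at hprod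
  have hdim : 2 ≤ finrank L K := by
    by_contra hlt
    have h1 : finrank L K = 1 := by
      have := finrank_pos (R := L) (M := K)
      omega
    refine hne (eq_top_iff.2 fun x _ => ?_)
    obtain ⟨c, hc⟩ := (finrank_eq_one_iff_of_nonzero' (1 : K) one_ne_zero).1 h1 x
    rw [← hc, Subfield.smul_def, smul_eq_mul, mul_one]
    exact c.2
  have hsq : Nat.card L * Nat.card L ≤ Nat.card K := by
    rw [Module.natCard_eq_pow_finrank (K := L) (V := K), ← pow_two]
    exact Nat.pow_le_pow_right Nat.card_pos hdim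
  have hle : Nat.card f.ker * Nat.card f.range ≤ 4 * Nat.card f.range := Nat.mul_le_mul_right _ h4
  rw [hprod] at hle
  have hk : Nat.card K ≤ 4 * Nat.card f.range + 1 := by omega
  have hr : (Nat.card f.range + 1) * (Nat.card f.range + 1) ≤ Nat.card K :=
    (Nat.mul_le_mul hrange hrange).trans hsq
  nlinarith

namespace Setup

variable {QK : QuadraticForm K V} {M : Subgroup (OQ Q)} (hS : Setup QK M)
include hS

lemma card_K : 27 ≤ Nat.card K := by
  haveI := hS.finiteF
  have := Fintype.ofFinite F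
  rw [Module.natCard_eq_pow_finrank (K := F) (V := K), hS.rank, Nat.card_eq_fintype_card]
  have h1 := Fintype.one_lt_card (α := F)
  have h2 := FiniteField.odd_card_of_char_ne_two (F := F) (fun h => hS.two (by
    have := ringChar.Nat.cast_ringChar (R := F)
    rw [h] at this
    exact_mod_cast this))
  calc 27 = 3 ^ 3 := by norm_num
    _ ≤ _ := Nat.pow_le_pow_left (by omega) 3

lemma elt_zero (z : V) : Elt QK M z (0 : K →ₗ[F] K) := ⟨1, one_mem M, fun x => by simp⟩

lemma elt_add {z : V} (hz : QK z = 0) {A B : K →ₗ[F] K} (hA : Elt QK M z A) (hB : Elt QK M z B) :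
    Elt QK M z (A + B) := by
  obtain ⟨a, ha, hax⟩ := hA
  obtain ⟨b, hb, hbx⟩ := hB
  refine ⟨a * b, mul_mem ha hb, fun x => ?_⟩
  rw [Subgroup.coe_mul, LinearEquiv.mul_apply, hax, hbx, polar_add_right, polar_smul_right,
    hS.sing_iff.1 hz, smul_zero, add_zero, LinearMap.add_apply, add_smul]
  abel

lemma elt_scale {z : V} (hz : QK z = 0) (hz0 : z ≠ 0) {A : K →ₗ[F] K} (hA : Elt QK M z A)
    {m : K} (hm : m ≠ 0) :
    Elt QK M z (LinearMap.mulLeft F (m * m) ∘ₗ A ∘ₗ LinearMap.mulLeft F (m * m)) := by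
  obtain ⟨s, hs, hlin, hsz⟩ := hS.exists_scale hz hz0 hm
  obtain ⟨e, he, hex⟩ := hS.elt_map hs hlin hA
  refine ⟨e, he, fun x => ?_⟩
  rw [hex, hsz, polar_smul_left, smul_smul, smul_eq_mul, mul_comm _ (m * m)]
  rfl

theorem allSk_of_cent {z : V} (hz : QK z = 0) (hz0 : z ≠ 0) (h : Cent QK M z) : AllSk QK M z := by
  haveI := hS.finiteF
  obtain ⟨σ, hσ1, hσ, htr⟩ := exists_frobenius (F := F) (K := K) hS.rank
  obtain ⟨A, hAskew, hA0, hA⟩ := hS.cent_elt hz hz0 h
  have hsk : ∀ a b : K, Sk (F := F) a b = phi σ (σ a * σ (σ b) - σ b * σ (σ a)) := fun a b =>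
    LinearMap.ext fun H => by
      simp only [Sk_apply, phi_apply, map_sub, map_mul, hσ, Algebra.smul_def, htr]
      ring
  obtain ⟨w₀, hw₀⟩ : ∃ w, phi σ w = A := by
    classical
    let b := Module.finBasis F K
    have hnd : (Algebra.traceForm F K).Nondegenerate := traceForm_nondegenerate F K
    let d := (Algebra.traceForm F K).dualBasis hnd b
    have hrep : ∀ x, x = ∑ i, Algebra.trace F K (x * b i) • d i := fun x => by
      conv_lhs => rw [← d.sum_repr x]
      exact Finset.sum_congr rfl fun i _ => by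
        rw [LinearMap.BilinForm.dualBasis_repr_apply, Algebra.traceForm_apply]
    have hneg : ∀ H, A H = -∑ i, Algebra.trace F K (A (d i) * H) • b i := fun H => hS.ext_tr fun k => by
      rw [hAskew k H]
      conv_lhs => rw [hrep k]
      simp only [map_sum, map_smul, Finset.mul_sum, Finset.sum_mul, mul_neg, map_neg, mul_smul_comm,
        smul_mul_assoc, smul_eq_mul, mul_comm H]
      exact congrArg Neg.neg (Finset.sum_congr rfl fun i _ => mul_comm _ _)
    have hpos : ∀ H, A H = ∑ i, Algebra.trace F K (b i * H) • A (d i) := fun H => by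
      conv_lhs => rw [hrep H]
      simp only [map_sum, map_smul, mul_comm H]
    obtain ⟨w, hw⟩ : ∃ w, w = ∑ i, (σ (b i) * σ (σ (A (d i))) - σ (A (d i)) * σ (σ (b i))) :=
      ⟨_, rfl⟩
    refine ⟨w / 2, LinearMap.ext fun H => ?_⟩
    have e : phi σ w H = A H + A H := by
      nth_rewrite 1 [hpos H]
      rw [hneg H, ← sub_eq_add_neg, ← Finset.sum_sub_distrib]
      let Φ : K →+ K := AddMonoidHom.mk' (fun w => phi σ w H) fun a b => by
        rw [phi_add, LinearMap.add_apply]
      rw [hw, show phi σ (∑ i, (σ (b i) * σ (σ (A (d i))) - σ (A (d i)) * σ (σ (b i)))) H =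
        Φ _ from rfl, map_sum]
      exact Finset.sum_congr rfl fun i _ => by
        show phi σ _ H = _
        rw [← hsk, Sk_apply]
    have h2 := congrArg (fun B : K →ₗ[F] K => B H) (phi_add σ (w / 2) (w / 2))
    rw [← add_div, ← two_mul w, mul_div_cancel_left₀ _ hS.twoK] at h2
    simp only [e, LinearMap.add_apply] at h2
    refine mul_left_cancel₀ hS.twoK ?_
    linear_combination -h2
  have hw0 : w₀ ≠ 0 := fun e => hA0 (by rw [← hw₀, e, phi_zero])
  let R : AddSubmonoid K :=
    { carrier := {c | ∀ w, Elt QK M z (phi σ w) → Elt QK M z (phi σ (c * w))}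
      add_mem' := fun {c c'} hc hc' w hw => by
        rw [add_mul, phi_add]; exact hS.elt_add hz (hc w hw) (hc' w hw)
      zero_mem' := fun w _ => by rw [zero_mul, phi_zero]; exact hS.elt_zero z }
  have hRmul : ∀ {c c' : K}, c ∈ R → c' ∈ R → c * c' ∈ R := fun {c c'} hc hc' w hw => by
    rw [mul_assoc]; exact hc _ (hc' w hw)
  have hR1 : (1 : K) ∈ R := fun w hw => by rwa [one_mul]
  have hRpow : ∀ {c : K}, c ∈ R → ∀ n : ℕ, c ^ n ∈ R := fun {c} hc n => by
    induction n with
    | zero => rwa [pow_zero]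
    | succ n ih => rw [pow_succ]; exact hRmul ih hc
  have := Fintype.ofFinite K
  obtain ⟨p, hp⟩ := CharP.exists K
  have hp0 : p ≠ 0 := CharP.char_ne_zero_of_finite K p
  have hneg1 : (-1 : K) ∈ R := by
    have e : (((p - 1 : ℕ)) : K) = -1 := by
      rw [Nat.cast_sub (Nat.one_le_iff_ne_zero.2 hp0), CharP.cast_eq_zero, Nat.cast_one, zero_sub]
    rw [← e, ← nsmul_one (p - 1)]
    exact R.nsmul_mem hR1 _
  let L : Subfield K :=
    { carrier := R
      mul_mem' := fun hc hc' => hRmul hc hc'
      one_mem' := hR1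
      add_mem' := fun hc hc' => R.add_mem hc hc'
      zero_mem' := R.zero_mem
      neg_mem' := fun {c} hc => by rw [← neg_one_mul]; exact hRmul hneg1 hc
      inv_mem' := fun c hc => by
        rcases eq_or_ne c 0 with rfl | hc0
        · rw [inv_zero]; exact R.zero_mem
        · rw [show c⁻¹ = c ^ (Fintype.card K - 2) from inv_eq_of_mul_eq_one_right (by
            rw [← pow_succ', show Fintype.card K - 2 + 1 = Fintype.card K - 1 by
              have := Fintype.one_lt_card (α := K); omega]
            exact FiniteField.pow_card_sub_one_eq_one c hc0)]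
          exact hRpow hc _ }
  have hL : L = ⊤ := subfield_eq_top σ hσ L (le_trans (by norm_num) hS.card_K) fun m hm w hw => by
    rw [← phi_scale σ hσ]
    exact hS.elt_scale hz hz0 hw hm
  intro a b
  have hmem : (σ a * σ (σ b) - σ b * σ (σ a)) / w₀ ∈ L := hL ▸ Subfield.mem_top _
  have := hmem w₀ (hw₀ ▸ hA)
  rw [div_mul_cancel₀ _ hw0, ← hsk] at this
  exact this

end Setup

end Cfsg.Agent.MaxSub.OrthExtNine
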