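import Cfsg.Agent.MaxSub.OrthExtNine.Count
import Cfsg.Agent.MaxSub.OrthExtNine.Skew
import Cfsg.Agent.MaxSub.OrthExt.Final

/-!
Overgroups of the linear group of a ternary trace form over a cubic extension: anything outside
the normaliser gives the whole commutator subgroup.
-/

set_option autoImplicit false
set_option linter.unusedSectionVars false
set_option linter.style.haveILetI false

namespace Cfsg.Agent.MaxSub.OrthExtNine

open QuadraticMap Module Cfsg.Agent.Classical Cfsg.Agent.OrthGen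
open Cfsg.Agent.MaxSub.OrthExt (Sk Sk_apply IsSkew Elt Cent AllSk IsLin exists_not_range
  exists_tr_zero_not_mem img mem_img)
open Cfsg.Agent.MaxSub.ExtField (kline mem_kline self_mem_kline smul_mem_kline finrank_kline)
open Cfsg.Agent.MaxSub.OrthOverfield (rootSpace self_mem_rootSpace map_rootSpace)

universe u v w

variable {F : Type u} {K : Type v} {V : Type w} [Field F] [Field K] [Algebra F K] [AddCommGroup V]
  [Module F V] [Module K V] [IsScalarTower F K V] [Finite K] [FiniteDimensional F K]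
  [FiniteDimensional K V] {Q : QuadraticForm F V}

namespace Setup

variable {QK : QuadraticForm K V} {M : Subgroup (OQ Q)} (hS : Setup QK M)
include hS

lemma sing_val {p : V} (hp : QK p = 0) : Q p = 0 := by rw [hS.val, hp, map_zero]

lemma finrankF : finrank F V = 9 := by
  rw [← Module.finrank_mul_finrank F K V, hS.rank, hS.dim]

lemma exists_sing : ∃ z, z ≠ 0 ∧ QK z = 0 := by
  haveI := hS.finiteV
  obtain ⟨v, -, hv0, hv⟩ := Forms.exists_singular_vector_of_three_le QK (S := ⊤)
    (by rw [finrank_top, hS.dim])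
  exact ⟨v, hv0, hv⟩

/-- Something outside the normaliser gives all root elements. -/
theorem allSk_of_outside {g : OQ Q} (hg : g ∈ M) (hout : ¬ IsSemi K g) :
    ∀ v, QK v = 0 → v ≠ 0 → AllSk QK M v := by
  obtain ⟨z, hz0, hz⟩ := hS.exists_sing
  obtain ⟨v, hv, hv0, hC⟩ := hS.exists_cent hg hout hz hz0
  exact fun w hw hw0 => hS.allSk_all hv hv0 (hS.allSk_of_cent hv hv0 hC) hw hw0

variable (hR : ∀ v, QK v = 0 → v ≠ 0 → AllSk QK M v)
include hR

lemma kline_mem {p : V} (hp : QK p = 0) (hp0 : p ≠ 0) (k : K) :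
    k • p ∈ rootSpace M (hS.sing_val hp) := by
  have hkp : ∀ k : K, QK (k • p) = 0 := fun k => by
    rw [QuadraticMap.map_smul, hp, smul_zero]
  refine ⟨by rw [hS.polar_trace, polar_smul_right, hS.sing_iff.1 hp, smul_zero, map_zero],
    fun t h => ?_⟩
  obtain ⟨g, hg, hgx⟩ := hR p hp hp0 1 (algebraMap F K t * k)
  convert hg using 1
  refine Subtype.ext (LinearEquiv.ext fun x => ?_)
  have e : t • k • p = (algebraMap F K t * k) • p := by rw [mul_smul, algebraMap_smul]
  rw [siegel_apply, hgx, e, hS.sing_val (hkp _), hS.polar_smul, hS.polar_trace, Sk_apply, one_mul,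
    sub_smul, smul_assoc, smul_assoc, one_smul, zero_mul, zero_smul, sub_zero, add_sub_assoc]

/-- A value off zero gives the orthogonal over the extension. -/
lemma perp_mem {p w : V} (hp : QK p = 0) (hp0 : p ≠ 0) (hw : w ∈ rootSpace M (hS.sing_val hp))
    (hpw : polar QK p w ≠ 0) {x : V} (hx : polar QK p x = 0) :
    x ∈ rootSpace M (hS.sing_val hp) := by
  have hpx : polar QK p ((polar QK p w)⁻¹ • x) = 0 := by
    rw [polar_smul_right, hx, smul_zero]
  obtain ⟨g, hg, hgx⟩ := hS.exists_siegel hp hpx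
  have hgp : g.1 p = p := by
    rw [hgx, hS.sing_iff.1 hp, polar_comm QK _ p, hpx]
    simp
  have h1 := map_rootSpace (hS.sing_val hp) (hS.sing_val hp) hg hgp hw
  rw [hgx, smul_inv_smul₀ hpw] at h1
  have h2 := (rootSpace M (hS.sing_val hp)).sub_mem h1 hw
  have h3 := (rootSpace M (hS.sing_val hp)).add_mem h2 (hS.kline_mem hR hp hp0
    (polar QK ((polar QK p w)⁻¹ • x) w + QK ((polar QK p w)⁻¹ • x) * polar QK p w))
  convert h3 using 1
  module

lemma perp_mem_three (hr : 3 ≤ finrank F K) {p : V} (hp : QK p = 0) (hp0 : p ≠ 0) {x : V}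
    (hx : polar Q p x = 0) : x ∈ rootSpace M (hS.sing_val hp) := by
  classical
  haveI := hS.finiteF
  obtain ⟨f, hf, hpf⟩ := hS.exists_partner hp hp0
  obtain ⟨l₀, hl₀S, htl₀⟩ := exists_tr_zero_not_mem hr (⊥ : Submodule F K) (by simp)
  have hl₀ : l₀ ≠ 0 := fun e => hl₀S (e ▸ zero_mem _)
  -- values off the line of `l₀`
  have hval : ∀ y ∉ Submodule.span F {l₀}, Algebra.trace F K y = 0 →
      ∃ w ∈ rootSpace M (hS.sing_val hp), polar QK p w = y := by
    intro y hy hty
    have hzp : polar QK (l₀ • f) p = l₀ := by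
      rw [polar_smul_left, polar_comm, hpf, smul_eq_mul, mul_one]
    obtain ⟨g, hg, hgx⟩ := hR (l₀ • f) (by rw [QuadraticMap.map_smul, hf, smul_zero])
      (smul_ne_zero hl₀ fun e => by simp [e] at hpf) 1 (y / l₀)
    have hgp : g.1 p = p := by
      rw [hgx, hzp, Sk_apply, one_mul, div_mul_cancel₀ _ hl₀, htl₀, hty]
      simp
    obtain ⟨l, hly, hll⟩ : ∃ l, Algebra.trace F K (y * l) = 0 ∧
        Algebra.trace F K (l * l₀) = 1 := by
      by_contra hcon
      push Not at hcon
      have h0 : ∀ l, Algebra.trace F K (y * l) = 0 → Algebra.trace F K (l * l₀) = 0 := by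
        intro l hl
        by_contra hne
        refine hcon ((Algebra.trace F K (l * l₀))⁻¹ • l) (by rw [mul_smul_comm, map_smul, hl,
          smul_zero]) (by rw [smul_mul_assoc, map_smul, smul_eq_mul, inv_mul_cancel₀ hne])
      have hy0 : y ≠ 0 := fun e => hy (e ▸ zero_mem _)
      obtain ⟨m, hm⟩ := hS.exists_tr_ne hy0
      obtain ⟨c, hc⟩ : ∃ c, c = Algebra.trace F K (m * l₀) / Algebra.trace F K (m * y) := ⟨_, rfl⟩
      have hl₀c : l₀ = c • y := hS.ext_tr fun k => by
        obtain ⟨d, hd⟩ : ∃ d, d = Algebra.trace F K (k * y) / Algebra.trace F K (m * y) := ⟨_, rfl⟩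
        have e := h0 (k - d • m) (by
          rw [mul_sub, map_sub, mul_smul_comm, map_smul, smul_eq_mul, mul_comm y k, mul_comm y m,
            hd, div_mul_cancel₀ _ hm, sub_self])
        rw [sub_mul, map_sub, smul_mul_assoc, map_smul, sub_eq_zero] at e
        rw [e, mul_smul_comm, map_smul, smul_eq_mul, smul_eq_mul, hd, hc]
        ring
      rcases eq_or_ne c 0 with h | h
      · exact hl₀ (by rw [hl₀c, h, zero_smul])
      · exact hy (Submodule.mem_span_singleton.2 ⟨c⁻¹, by rw [hl₀c, inv_smul_smul₀ h]⟩)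
    refine ⟨g.1 (l • p), map_rootSpace _ _ hg hgp (hS.kline_mem hR hp hp0 l), ?_⟩
    rw [hgx, polar_add_right, polar_smul_right, hS.sing_iff.1 hp, smul_zero, zero_add,
      polar_smul_right, polar_smul_right, polar_smul_right, polar_comm QK p f, polar_comm QK f p,
      hpf, hzp, Sk_apply, one_mul]
    simp only [smul_eq_mul, mul_one]
    rw [hll, show y / l₀ * (l * l₀) = y * l by field_simp, hly]
    simp [div_mul_cancel₀ _ hl₀]
  obtain ⟨y₁, hy₁, hty₁⟩ := exists_tr_zero_not_mem hr (Submodule.span F {l₀})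
    (finrank_span_singleton hl₀).le
  obtain ⟨w₁, hw₁, hpw₁⟩ := hval y₁ hy₁ hty₁
  have hne : polar QK p w₁ ≠ 0 := by rw [hpw₁]; exact fun e => hy₁ (e ▸ zero_mem _)
  obtain ⟨w, hw, hpw⟩ : ∃ w ∈ rootSpace M (hS.sing_val hp), polar QK p w = polar QK p x := by
    have hty : Algebra.trace F K (polar QK p x) = 0 := by rw [← hS.polar_trace, hx]
    by_cases hy : polar QK p x ∈ Submodule.span F {l₀}
    · obtain ⟨w, hw, hpw⟩ := hval (polar QK p x + y₁)
        (fun h => hy₁ (by simpa using sub_mem h hy)) (by rw [map_add, hty, hty₁, add_zero])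
      exact ⟨w - w₁, sub_mem hw hw₁, by rw [polar_sub_right, hpw, hpw₁, add_sub_cancel_right]⟩
    · exact hval _ hy hty
  have := (rootSpace M (hS.sing_val hp)).add_mem hw
    (hS.perp_mem hR hp hp0 hw₁ hne (x := x - w) (by rw [polar_sub_right, hpw, sub_self]))
  rwa [add_sub_cancel] at this

lemma mem_centres {p : V} (hp : QK p = 0) (hp0 : p ≠ 0) : p ∈ GeoClasses.siegelCentres Q M := by
  refine ⟨hS.sing_val hp, fun a ha => ?_⟩
  have hW : a ∈ rootSpace M (hS.sing_val hp) := hS.perp_mem_three hR (by rw [hS.rank]) hp hp0 ha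
  have := hW.2 1 (by rwa [one_smul])
  rwa [siegel_congr Q _ _ (hS.sing_val hp) ha rfl (one_smul F a)] at this

omit hR in
/-- An element outside the normaliser gives the commutator subgroup. -/
theorem commutator_le {g : OQ Q} (hg : g ∈ M) (hout : ¬ IsSemi K g) :
    commutator (OQ Q) ≤ M := by
  haveI := hS.finiteF
  haveI := hS.finiteDim
  have hR := hS.allSk_of_outside hg hout
  obtain ⟨z, hz0, hz⟩ := hS.exists_sing
  obtain ⟨f, hf, hzf⟩ := hS.exists_partner hz hz0
  obtain ⟨c, hc⟩ := hS.exists_tr_ne (one_ne_zero : (1 : K) ≠ 0)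
  have hf0 : f ≠ 0 := fun e => by simp [e] at hzf
  have hc0 : c ≠ 0 := fun e => by simp [e] at hc
  refine GeoClasses.commutator_le_of_centre_pair hS.bnondeg ?_ (hS.mem_centres hR hz hz0)
    (hS.mem_centres hR (p := c • f) (by rw [QuadraticMap.map_smul, hf, smul_zero])
      (smul_ne_zero hc0 hf0)) ?_
  · rw [hS.finrankF]; norm_num
  · rw [hS.polar_smul, polar_comm, hzf]
    exact hc

omit hR in
/-- The commutator subgroup is not semilinear. -/
theorem exists_outside : ∃ g ∈ commutator (OQ Q),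
    ¬ ∀ k : K, ∃ k' : K, ∀ x, g.1 (k • x) = k' • g.1 x := by
  haveI := hS.finiteF
  haveI := hS.finiteDim
  obtain ⟨z, hz0, hz⟩ := hS.exists_sing
  obtain ⟨f, hf, hzf⟩ := hS.exists_partner hz hz0
  obtain ⟨k, hk⟩ := exists_not_range (F := F) (K := K) hS.prime.two_le
  have hzz : polar QK z z = 0 := hS.sing_iff.1 hz
  have hkq : Q (k • z) = 0 := hS.sing_val (by rw [QuadraticMap.map_smul, hz, smul_zero])
  have hzk : polar Q z (k • z) = 0 := by
    rw [hS.polar_trace, polar_smul_right, hzz, smul_zero, map_zero]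
  have hn5 : 5 ≤ finrank F V := by
    rw [hS.finrankF]; norm_num
  refine ⟨siegel Q (hS.sing_val hz) hzk,
    GeoClasses.siegel_singular_mem_commutator hS.bnondeg hn5 _ _ hkq, fun h => ?_⟩
  have hgx : ∀ x, (siegel Q (hS.sing_val hz) hzk).1 x = x + Sk (F := F) 1 k (polar QK z x) • z := by
    intro x
    rw [siegel_apply, hkq, hS.polar_smul, hS.polar_trace, Sk_apply, one_mul, sub_smul, smul_assoc,
      smul_assoc, one_smul, zero_mul, zero_smul, sub_zero, add_sub_assoc]
  generalize hA : Sk (F := F) (1 : K) k = A at hgx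
  have hlin : ∀ l, A l = l * A 1 := by
    intro l
    obtain ⟨l', hl'⟩ := h l
    have e1 := hl' z
    rw [hgx, hgx, polar_smul_right, hzz, smul_zero, map_zero, zero_smul, add_zero, add_zero] at e1
    have e2 := hl' f
    rw [← smul_left_injective K hz0 e1, hgx, hgx, polar_smul_right, hzf, smul_eq_mul, mul_one,
      smul_add, smul_smul, add_right_inj] at e2
    exact smul_left_injective K hz0 e2
  have hskew : ∀ l, Algebra.trace F K (1 * A l) = - Algebra.trace F K (l * A 1) := by
    intro l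
    rw [← hA]
    simp only [Sk_apply, mul_sub, mul_smul_comm, map_sub, map_smul, smul_eq_mul, one_mul, mul_one]
    rw [mul_comm k l]
    ring
  have hA1 : A 1 = 0 := hS.ext_tr fun l => by
    have e := hskew l
    rw [hlin l, one_mul] at e
    rw [mul_zero, map_zero]
    exact (mul_eq_zero.1 (show (2 : F) * Algebra.trace F K (l * A 1) = 0 by
      linear_combination e)).resolve_left hS.two
  obtain ⟨c, hc⟩ := hS.exists_tr_ne (one_ne_zero : (1 : K) ≠ 0)
  rw [mul_one] at hc
  have e0 := hlin c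
  rw [hA1, mul_zero, ← hA, Sk_apply, one_mul, sub_eq_zero] at e0
  refine hk ⟨Algebra.trace F K (k * c) / Algebra.trace F K c, ?_⟩
  have hc' : algebraMap F K (Algebra.trace F K c) ≠ 0 := (map_ne_zero (algebraMap F K)).2 hc
  rw [Algebra.smul_def, Algebra.smul_def, mul_one] at e0
  rw [map_div₀, div_eq_iff hc', ← e0, mul_comm]

end Setup

end Cfsg.Agent.MaxSub.OrthExtNine
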