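import Cfsg.Agent.MaxSub.OrthExtNine.Basic

/-!
An element carrying one singular line onto another is semilinear, unless some element fixes a
hyperplane pointwise.
-/

set_option autoImplicit false
set_option linter.unusedSectionVars false
set_option linter.style.haveILetI false

namespace Cfsg.Agent.MaxSub.OrthExtNine

open QuadraticMap Module Cfsg.Agent.Classical Cfsg.Agent.OrthGen
open Cfsg.Agent.MaxSub.OrthExt (Sk Sk_apply IsSkew Elt Cent AllSk IsLin exists_two_squares
  exists_common_zero img mem_img finrank_img)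
open Cfsg.Agent.MaxSub.ExtField (kline mem_kline self_mem_kline smul_mem_kline finrank_kline)

universe u v w

variable {F : Type u} {K : Type v} {V : Type w} [Field F] [Field K] [Algebra F K] [AddCommGroup V]
  [Module F V] [Module K V] [IsScalarTower F K V] [Finite K] [FiniteDimensional F K]
  [FiniteDimensional K V] {Q : QuadraticForm F V}

namespace Setup

variable {QK : QuadraticForm K V} {M : Subgroup (OQ Q)} (hS : Setup QK M)
include hS

/-- A parameter for the sums of two squares used below. -/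
lemma exists_param : ∃ t : K, 2 * t ≠ 0 ∧ 1 - t * t ≠ 0 ∧ 1 + t * t ≠ 0 ∧
    (2 * t) * (2 * t) * ((2 * t) * (2 * t)) +
        (2 * t) * (2 * t) * ((1 - t * t) * (1 - t * t)) +
      (1 - t * t) * (1 - t * t) * ((1 - t * t) * (1 - t * t)) ≠ 0 := by
  classical
  haveI := hS.finiteF
  have := Fintype.ofFinite K
  have := Fintype.ofFinite F
  let X := (Polynomial.X : Polynomial K)
  let P : Polynomial K := X * (1 - X * X) * (1 + X * X) *
    ((2 * X) * (2 * X) * ((2 * X) * (2 * X)) + (2 * X) * (2 * X) * ((1 - X * X) * (1 - X * X)) +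
      (1 - X * X) * (1 - X * X) * ((1 - X * X) * (1 - X * X)))
  have hdeg : P.natDegree ≤ 13 := by
    simp only [P, X]
    compute_degree
  have hP0 : P ≠ 0 := by
    intro h
    have := congrArg (fun p : Polynomial K => p.coeff 1) h
    simp [P, X, Polynomial.coeff_one, Polynomial.mul_coeff_zero, Polynomial.mul_coeff_one] at this
  have h3 : 3 ≤ Fintype.card F := by
    have h1 := Fintype.one_lt_card (α := F)
    have h2 := FiniteField.odd_card_of_char_ne_two (F := F) (fun h => hS.two (by
      have := ringChar.Nat.cast_ringChar (R := F)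
      rw [h] at this
      exact_mod_cast this))
    omega
  have hK : 13 < Fintype.card K := by
    rw [Module.card_eq_pow_finrank (K := F), hS.rank]
    calc 13 < 3 ^ 3 := by norm_num
      _ ≤ _ := Nat.pow_le_pow_left h3 3
  obtain ⟨t, ht⟩ : ∃ t, P.eval t ≠ 0 := by
    by_contra hall
    push Not at hall
    exact hP0 (Polynomial.eq_zero_of_natDegree_lt_card_of_eval_eq_zero P
      Function.injective_id hall (lt_of_le_of_lt hdeg hK))
  simp only [P, X, Polynomial.eval_mul, Polynomial.eval_add, Polynomial.eval_sub,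
    Polynomial.eval_X, Polynomial.eval_one, Polynomial.eval_ofNat, mul_ne_zero_iff] at ht
  exact ⟨t, mul_ne_zero hS.twoK ht.1.1.1, ht.1.1.2, ht.1.2, ht.2⟩

/-- Elements agreeing on the orthogonal of `z`. -/
lemma cent_or_eq {z : V} {a b : OQ Q} (ha : a ∈ M) (hb : b ∈ M)
    (h : ∀ y, polar QK z y = 0 → a.1 y = b.1 y) :
    Cent QK M z ∨ ∀ x, a.1 x = b.1 x := by
  by_cases he : a = b
  · exact Or.inr fun x => by rw [he]
  refine Or.inl ⟨b⁻¹ * a, mul_mem (inv_mem hb) ha, fun h1 => he (inv_mul_eq_one.1 h1).symm,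
    fun y hy => ?_⟩
  show b.1.symm (a.1 y) = y
  rw [h y hy, LinearEquiv.symm_apply_apply]

lemma exists_adjoint (T : K →ₗ[F] K) :
    ∃ Ts : K → K, ∀ k H, Algebra.trace F K (k * Ts H) = Algebra.trace F K (T k * H) := by
  haveI := hS.finiteF
  have htr : (Algebra.traceForm F K).Nondegenerate := traceForm_nondegenerate F K
  refine ⟨fun H => ((Algebra.traceForm F K).toDual htr).symm
    ((Algebra.trace F K) ∘ₗ LinearMap.mulRight F H ∘ₗ T), fun k H => ?_⟩
  have := LinearMap.BilinForm.apply_toDual_symm_apply (hB := htr)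
    ((Algebra.trace F K) ∘ₗ LinearMap.mulRight F H ∘ₗ T) k
  rw [Algebra.traceForm_apply, mul_comm] at this
  exact this

theorem key {g : OQ Q} (hg : g ∈ M) {z z' : V} (hz : QK z = 0) (hz0 : z ≠ 0) (hz' : QK z' = 0)
    (hz'0 : z' ≠ 0) (hline : ∀ k : K, ∃ k' : K, g.1 (k • z) = k' • z') :
    Cent QK M z' ∨ ∃ θ : K ≃ₐ[F] K, ∀ k u, polar QK z u = 0 → g.1 (k • u) = θ k • g.1 u := by
  by_cases hC : Cent QK M z'
  · exact Or.inl hC
  refine Or.inr ?_
  haveI := hS.finiteF
  obtain ⟨f', -, hzf'⟩ := hS.exists_partner hz' hz'0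
  have hf'z : polar QK f' z' = 1 := by rw [polar_comm, hzf']
  have hzz : polar QK z z = 0 := hS.sing_iff.1 hz
  have hz'z' : polar QK z' z' = 0 := hS.sing_iff.1 hz'
  let T : K →ₗ[F] K :=
    { toFun := fun k => polar QK f' (g.1 (k • z))
      map_add' := fun k l => by rw [add_smul, map_add, polar_add_right]
      map_smul' := fun t k => by
        rw [smul_assoc, map_smul, RingHom.id_apply, ← algebraMap_smul K t, polar_smul_right,
          smul_eq_mul, ← Algebra.smul_def] }
  have hT : ∀ k, g.1 (k • z) = T k • z' := fun k => by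
    obtain ⟨k', hk'⟩ := hline k
    show _ = polar QK f' (g.1 (k • z)) • z'
    rw [hk', polar_smul_right, hf'z, smul_eq_mul, mul_one]
  have hTinj : Function.Injective T := fun k l h =>
    smul_left_injective K hz0 (g.1.injective (show g.1 (k • z) = g.1 (l • z) by rw [hT, hT, h]))
  have hTsurj : Function.Surjective T := Finite.injective_iff_surjective.1 hTinj
  obtain ⟨Ts, hTs⟩ := hS.exists_adjoint T
  have hTs0 : Ts 0 = 0 := hS.ext_tr fun k => by rw [hTs, mul_zero, mul_zero]
  have hTsinj : Function.Injective Ts := fun H H' h => hS.ext_tr fun m => by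
    obtain ⟨k, rfl⟩ := hTsurj m
    rw [← hTs, ← hTs, h]
  have hTssurj : Function.Surjective Ts := Finite.injective_iff_surjective.1 hTsinj
  have hG : ∀ x, polar QK z (g.1.symm x) = Ts (polar QK z' x) := fun x => hS.ext_tr fun k => by
    rw [hTs, ← hS.polar_smul, ← hS.polar_smul, ← hT]
    conv_rhs => rw [← g.1.apply_symm_apply x, OQ_polar]
  have hperp : ∀ u, polar QK z u = 0 → polar QK z' (g.1 u) = 0 := fun u hu => hTsinj (by
    rw [← hG, LinearEquiv.symm_apply_apply, hu, hTs0])
  have hperp' : ∀ y, polar QK z' y = 0 → polar QK z (g.1.symm y) = 0 := fun y hy => by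
    rw [hG, hy, hTs0]
  -- the conjugates of the elements at `z`
  have hconj : ∀ b, polar QK z b = 0 → ∃ C ∈ M, ∀ x, C.1 x = x +
      g.1 (Ts (polar QK z' x) • b) -
        T (polar QK b (g.1.symm x) + QK b * Ts (polar QK z' x)) • z' := by
    intro b hb
    obtain ⟨t, ht, htx⟩ := hS.exists_siegel hz hb
    refine ⟨g * t * g⁻¹, mul_mem (mul_mem hg ht) (inv_mem hg), fun x => ?_⟩
    show g.1 (t.1 (g.1.symm x)) = _
    rw [htx, hG, map_sub, map_sub, map_add, LinearEquiv.apply_symm_apply, hT, hT, map_add T,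
      add_smul, sub_sub]
  -- the commutator relation
  have hI : ∀ b c H, polar QK z b = 0 → polar QK z' c = 0 →
      T (polar QK b (g.1.symm (H • c))) = polar QK c (g.1 (Ts H • b)) := by
    intro b c H hb hc
    obtain ⟨C, hCM, hCx⟩ := hconj b hb
    obtain ⟨S, hSM, hSx⟩ := hS.exists_siegel hz' hc
    have hCy : ∀ y, polar QK z' y = 0 → C.1 y = y - T (polar QK b (g.1.symm y)) • z' := by
      intro y hy
      rw [hCx, hy, hTs0, zero_smul, map_zero, add_zero, mul_zero, add_zero]
    have hCk : ∀ k : K, C.1 (k • z') = k • z' := by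
      intro k
      obtain ⟨l, rfl⟩ := hTsurj k
      rw [hCy _ (by rw [polar_smul_right, hz'z', smul_zero]), ← hT, LinearEquiv.symm_apply_apply,
        polar_smul_right, polar_comm QK b z, hb, smul_zero, map_zero, zero_smul, sub_zero]
    have hSy : ∀ y, polar QK z' y = 0 → S.1 y = y - polar QK c y • z' := by
      intro y hy
      rw [hSx, hy, zero_smul, add_zero, mul_zero, zero_smul, sub_zero]
    have hcomm : ∀ x, C.1 (S.1 x) = S.1 (C.1 x) := by
      refine (hS.cent_or_eq (z := z') (a := C * S) (b := S * C) (mul_mem hCM hSM) (mul_mem hSM hCM)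
        fun y hy => ?_).resolve_left hC
      show C.1 (S.1 y) = S.1 (C.1 y)
      rw [hSy y hy, hCy y hy, map_sub, map_sub, hCk, hCy y hy, hSy y hy, hSy _
        (show polar QK z' (T (polar QK b (g.1.symm y)) • z') = 0 by
          rw [polar_smul_right, hz'z', smul_zero]), polar_smul_right, polar_comm QK c z', hc,
        smul_zero, zero_smul, sub_zero, sub_right_comm]
    obtain ⟨x, hx⟩ := hS.exists_coord hz'0 H
    have hgG : polar QK z' (g.1 (Ts H • b)) = 0 :=
      hperp _ (by rw [polar_smul_right, hb, smul_zero])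
    have e := hcomm x
    rw [hSx, hx, map_sub, map_sub, map_add, hCk, hCk,
      hCy _ (show polar QK z' (H • c) = 0 by rw [polar_smul_right, hc, smul_zero]), hSx, hCx x, hx,
      polar_sub_right, polar_add_right, polar_smul_right, hx, hgG, hz'z', smul_zero, sub_zero,
      add_zero, polar_sub_right, polar_add_right, polar_smul_right, polar_comm QK c z', hc,
      smul_zero, sub_zero] at e
    refine smul_left_injective K hz'0 (show T (polar QK b (g.1.symm (H • c))) • z' =
      polar QK c (g.1 (Ts H • b)) • z' from ?_)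
    linear_combination (norm := module) -e
  obtain ⟨a, ha⟩ : ∃ a, a = Ts 1 := ⟨_, rfl⟩
  have ha0 : a ≠ 0 := fun h => one_ne_zero (hTsinj (by rw [← ha, h, hTs0]) : (1 : K) = 0)
  have h1 : ∀ b c, polar QK z b = 0 → polar QK z' c = 0 →
      T (polar QK b (g.1.symm c)) = polar QK c (g.1 (a • b)) := fun b c hb hc => by
    have := hI b c 1 hb hc
    rwa [one_smul, ← ha] at this
  have hII : ∀ H b, polar QK z b = 0 →
      ∃ e : K, e • z' = g.1 (Ts H • b) - H • g.1 (a • b) := by
    intro H b hb
    refine hS.mem_line_of_perp fun y hy => ?_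
    rw [polar_comm, polar_sub_right, ← hI b y H hb hy,
      h1 b (H • y) hb (by rw [polar_smul_right, hy, smul_zero]), polar_smul_left, polar_smul_right,
      sub_self]
  choose inv hinv using hTssurj
  have hmod : ∀ k u, polar QK z u = 0 → ∃ e : K, e • z' = g.1 (k • u) - inv (k * a) • g.1 u := by
    intro k u hu
    obtain ⟨e, he⟩ := hII (inv (k * a)) (a⁻¹ • u) (by rw [polar_smul_right, hu, smul_zero])
    rw [hinv, smul_smul, smul_smul, mul_assoc, mul_inv_cancel₀ ha0, mul_one, one_smul] at he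
    exact ⟨e, he⟩
  obtain ⟨t, ht⟩ : ∃ t, t = T 1 := ⟨_, rfl⟩
  have ht0 : t ≠ 0 := fun h => one_ne_zero (hTinj (by rw [← ht, h, map_zero]) : (1 : K) = 0)
  have hmul : ∀ k s, T (k * s) = inv (k * a) * T s := by
    intro k s
    obtain ⟨b, hb, hbn⟩ := hS.exists_perp_not_line z
    obtain ⟨u, hu, hub⟩ := hS.exists_dual hbn
    have hsu : polar QK z (s • u) = 0 := by rw [polar_smul_right, hu, smul_zero]
    obtain ⟨e, he⟩ := hmod k (a • b) (by rw [polar_smul_right, hb, smul_zero])
    have e1 := h1 (k • b) (g.1 (s • u)) (by rw [polar_smul_right, hb, smul_zero]) (hperp _ hsu)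
    have e2 := h1 b (g.1 (s • u)) hb (hperp _ hsu)
    rw [LinearEquiv.symm_apply_apply, smul_comm a k, sub_eq_iff_eq_add.1 he.symm] at e1
    rw [LinearEquiv.symm_apply_apply] at e2
    simp only [polar_add_right, polar_smul_right, polar_comm QK (g.1 (s • u)) z', hperp _ hsu,
      mul_zero, zero_add, ← e2, polar_smul_left, hub, smul_eq_mul, mul_one] at e1
    rwa [mul_comm k s]
  have hT1 : ∀ k, T k = inv (k * a) * t := fun k => by
    have := hmul k 1
    rwa [mul_one, ← ht] at this
  let φ : K →ₐ[F] K := AlgHom.ofLinearMap (LinearMap.mulRight F t⁻¹ ∘ₗ T)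
    (show T 1 * t⁻¹ = 1 by rw [← ht, mul_inv_cancel₀ ht0])
    (fun k l => show T (k * l) * t⁻¹ = T k * t⁻¹ * (T l * t⁻¹) by
      rw [hmul, hT1 k, mul_assoc (inv (k * a)) t, mul_inv_cancel₀ ht0, mul_one, mul_assoc])
  have hφ : ∀ k, φ k = T k * t⁻¹ := fun k => rfl
  have hφ' : ∀ k, φ k = inv (k * a) := fun k => by
    rw [hφ, hT1, mul_assoc, mul_inv_cancel₀ ht0, mul_one]
  let θ : K ≃ₐ[F] K := AlgEquiv.ofBijective φ
    (Finite.injective_iff_bijective.1 φ.toRingHom.injective)
  have hθ : ∀ k, θ k = φ k := fun k => rfl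
  have hTθ : ∀ k, T k = θ k * t := fun k => by rw [hθ, hφ', hT1]
  have htrace : ∀ k, Algebra.trace F K (θ k) = Algebra.trace F K k := fun k =>
    Algebra.trace_eq_of_algEquiv θ k
  have hTsθ : ∀ H, Ts H = θ.symm (t * H) := fun H => hS.ext_tr fun k => by
    rw [hTs, hTθ, ← htrace (k * θ.symm (t * H)), map_mul θ, AlgEquiv.apply_symm_apply, mul_assoc]
  refine ⟨θ, fun k₀ u hu => ?_⟩
  -- the defect
  have hex : ∀ u H, polar QK z u = 0 → g.1 (θ.symm H • u) =
      H • g.1 u + polar QK f' (g.1 (θ.symm H • u) - H • g.1 u) • z' := by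
    intro u H hu
    obtain ⟨e, he⟩ := hmod (θ.symm H) u hu
    rw [← hφ', ← hθ, AlgEquiv.apply_symm_apply] at he
    rw [← he, polar_smul_right, hf'z, smul_eq_mul, mul_one, he, add_sub_cancel]
  obtain ⟨E, hE⟩ : ∃ E : V → K → K,
      ∀ u H, E u H = polar QK f' (g.1 (θ.symm H • u) - H • g.1 u) := ⟨_, fun u H => rfl⟩
  simp only [← hE] at hex
  have hadj : ∀ u, polar QK z u = 0 → ∀ m H,
      Algebra.trace F K (m * E u H) = Algebra.trace F K (E u m * H) := by
    intro u hu
    obtain ⟨b, hb⟩ : ∃ b, b = a⁻¹ • u := ⟨_, rfl⟩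
    have hzb : polar QK z b = 0 := by rw [hb, polar_smul_right, hu, smul_zero]
    have hab : a • b = u := by rw [hb, smul_inv_smul₀ ha0]
    have haθ : a = θ.symm t := by rw [ha, hTsθ, mul_one]
    obtain ⟨C, hCM, hCx⟩ := hconj b hzb
    obtain ⟨S, hSM, hSx⟩ := hS.exists_siegel hz' (hperp u hu)
    have heq : ∀ x, C.1 x = S.1 x := by
      refine (hS.cent_or_eq hCM hSM fun y hy => ?_).resolve_left hC
      rw [hCx, hSx, hy, hTs0, mul_zero, mul_zero, add_zero, zero_smul, zero_smul, map_zero,
        add_zero, zero_smul, sub_zero, h1 b y hzb hy, hab, polar_comm QK (g.1 u) y]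
    obtain ⟨c, hc⟩ : ∃ c, c = θ (QK b) * (t * t) - QK (g.1 u) := ⟨_, rfl⟩
    have hrel : ∀ m H, Algebra.trace F K (m * E u H) =
        Algebra.trace F K (E u m * H) + Algebra.trace F K (c * (m * H)) := by
      intro m H
      obtain ⟨x, hx⟩ := hS.exists_coord hz'0 H
      have hTb : ∀ H, Ts H • b = θ.symm H • u := fun H => by
        rw [← hab, smul_smul, hTsθ, map_mul, haθ, mul_comm]
      have e := heq x
      rw [hCx, hSx, hx, hTb, hex u H hu] at e
      have e' : E u H = T (polar QK b (g.1.symm x)) + θ (QK b) * (t * t) * H -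
          polar QK (g.1 u) x - QK (g.1 u) * H := by
        refine smul_left_injective K hz'0 (show E u H • z' = _ • z' from ?_)
        rw [show θ (QK b) * (t * t) * H = T (QK b * Ts H) by
          rw [hTθ, hTsθ, map_mul, AlgEquiv.apply_symm_apply]; ring]
        rw [map_add] at e
        linear_combination (norm := module) e
      have e2 : Algebra.trace F K (m * T (polar QK b (g.1.symm x))) =
          Algebra.trace F K (m * polar QK (g.1 u) x) + Algebra.trace F K (E u m * H) := by
        rw [mul_comm m, ← hTs, mul_comm (polar QK b (g.1.symm x)), ← hS.polar_smul, hTb,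
          ← OQ_polar g, LinearEquiv.apply_symm_apply, hex u m hu, polar_add_left, hS.polar_smul,
          hS.polar_smul, hx]
      rw [e', hc, mul_sub, mul_sub, mul_add, map_sub, map_sub, map_add, e2, sub_mul, map_sub,
        show m * (θ (QK b) * (t * t) * H) = θ (QK b) * (t * t) * (m * H) by ring,
        show m * (QK (g.1 u) * H) = QK (g.1 u) * (m * H) by ring]
      ring
    have hc0 : c = 0 := hS.ext_tr fun k => by
      have e1 := hrel k 1
      have e2 := hrel 1 k
      rw [mul_one (E u k), mul_one k] at e1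
      rw [one_mul k, one_mul (E u k), mul_comm (E u 1) k] at e2
      rw [mul_zero, map_zero, mul_comm]
      exact (mul_eq_zero.1 (show (2 : F) * Algebra.trace F K (c * k) = 0 by
        linear_combination -(e1 + e2))).resolve_left hS.two
    intro m H
    rw [hrel, hc0, zero_mul, map_zero, add_zero]
  have hcoc : ∀ u l k, polar QK z u = 0 → E (θ.symm l • u) k = E u (k * l) - k * E u l := by
    intro u l k hu
    have e := hex (θ.symm l • u) k (by rw [polar_smul_right, hu, smul_zero])
    rw [smul_smul, ← map_mul, hex u (k * l) hu, hex u l hu] at e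
    refine smul_left_injective K hz'0 (show E (θ.symm l • u) k • z' = _ • z' from ?_)
    linear_combination (norm := module) -e
  have hE0 : E u (θ k₀) = 0 := by
    have h10 : E u 1 = 0 := by rw [hE, map_one, one_smul, one_smul, sub_self, polar_zero_right]
    refine hS.ext_tr fun k => ?_
    have e1 := hadj (θ.symm (θ k₀) • u) (by rw [polar_smul_right, hu, smul_zero]) 1 k
    rw [hcoc u _ _ hu, hcoc u _ _ hu, one_mul, one_mul, one_mul, sub_self, zero_mul, map_zero,
      map_sub, sub_eq_zero] at e1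
    have e2 := hadj u hu 1 (k * θ k₀)
    rw [one_mul, h10, zero_mul, map_zero] at e2
    rw [mul_zero, map_zero, ← e1, e2]
  have := hex u (θ k₀) hu
  rwa [AlgEquiv.symm_apply_apply, hE0, zero_smul, add_zero] at this

/-- A semilinear hyperplane extends, unless some element fixes it pointwise. -/
theorem cent_or_semilinear {g : OQ Q} (hg : g ∈ M) {z : V} (hz : QK z = 0) (hz0 : z ≠ 0)
    (hgz : QK (g.1 z) = 0) (θ : K ≃ₐ[F] K)
    (hθ : ∀ k u, polar QK z u = 0 → g.1 (k • u) = θ k • g.1 u) :
    Cent QK M z ∨ ∀ k x, g.1 (k • x) = θ k • g.1 x := by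
  by_cases hC : Cent QK M z
  · exact Or.inl hC
  refine Or.inr ?_
  haveI := hS.finiteF
  have htrace : ∀ k, Algebra.trace F K (θ k) = Algebra.trace F K k := fun k =>
    Algebra.trace_eq_of_algEquiv θ k
  have hform : ∀ u w, polar QK z u = 0 → polar QK (g.1 u) (g.1 w) = θ (polar QK u w) := by
    intro u w hu
    refine hS.ext_tr fun k => ?_
    rw [← hS.polar_smul, ← θ.apply_symm_apply k, ← hθ _ u hu, OQ_polar, hS.polar_smul, ← map_mul,
      htrace]
  have hQg : ∀ u, polar QK z u = 0 → QK (g.1 u) = θ (QK u) := by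
    intro u hu
    have := hform u u hu
    rw [polar_self, polar_self, two_smul, two_smul, map_add, ← two_mul, ← two_mul] at this
    exact mul_left_cancel₀ hS.twoK this
  obtain ⟨f, hf, hzf⟩ := hS.exists_partner hz hz0
  have hzz : polar QK z z = 0 := hS.sing_iff.1 hz
  have hzfne : polar QK z f ≠ 0 := by rw [hzf]; exact one_ne_zero
  have hgzf : polar QK (g.1 z) (g.1 f) = 1 := by rw [hform z f hzz, hzf, map_one]
  obtain ⟨β, hβ⟩ : ∃ β, β = QK (g.1 f) := ⟨_, rfl⟩
  obtain ⟨f', hf'⟩ : ∃ f', f' = g.1 f - β • g.1 z := ⟨_, rfl⟩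
  have hf'q : QK f' = 0 := by
    rw [hf', qf_sub, QuadraticMap.map_smul, hgz, polar_smul_right, polar_comm, hgzf, ← hβ]
    simp
  have hgf : g.1 f = f' + β • g.1 z := by rw [hf']; abel
  have hgzf' : polar QK (g.1 z) f' = 1 := by
    rw [hf', polar_sub_right, polar_smul_right, hS.sing_iff.1 hgz, hgzf, smul_zero, sub_zero]
  have hne' : polar QK (g.1 z) f' ≠ 0 := by rw [hgzf']; exact one_ne_zero
  have hW : ∀ u, polar QK z u = 0 → polar QK f u = 0 →
      polar QK (g.1 z) (g.1 u) = 0 ∧ polar QK f' (g.1 u) = 0 := by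
    intro u hu hu'
    have h0 : polar QK (g.1 z) (g.1 u) = 0 := by rw [hform z u hzz, hu, map_zero]
    refine ⟨h0, ?_⟩
    rw [hf', polar_sub_left, polar_smul_left, h0, smul_zero, sub_zero, polar_comm, hform u f hu,
      polar_comm, hu', map_zero]
  have hmain : ∀ m : K, m ≠ 0 →
      g.1 ((m * m)⁻¹ • f) = (θ (m * m))⁻¹ • f' + (β * θ (m * m)) • g.1 z := by
    intro m hm
    have hθm : θ m ≠ 0 := (map_ne_zero θ).2 hm
    obtain ⟨t, ht, htlin, htz, htf, htu⟩ := hS.exists_levi hz hf hzfne hm
    obtain ⟨s, hs, hslin, hsz, hsf, hsu⟩ := hS.exists_levi hgz hf'q hne' hθm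
    have heq : ∀ x, g.1 (t.1 x) = s.1 (g.1 x) := by
      refine (hS.cent_or_eq (z := z) (a := g * t) (b := s * g) (mul_mem hg ht) (mul_mem hs hg)
        fun y hy => ?_).resolve_left hC
      show g.1 (t.1 y) = s.1 (g.1 y)
      obtain ⟨u, hu⟩ : ∃ u, u = y - polar QK f y • z := ⟨_, rfl⟩
      have hy' : y = polar QK f y • z + u := by rw [hu]; abel
      have hu1 : polar QK z u = 0 := by
        rw [hu, polar_sub_right, polar_smul_right, hy, hzz, smul_zero, sub_zero]
      have hu2 : polar QK f u = 0 := by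
        rw [hu, polar_sub_right, polar_smul_right, polar_comm QK f z, hzf, smul_eq_mul, mul_one,
          sub_self]
      obtain ⟨hu3, hu4⟩ := hW u hu1 hu2
      rw [hy', map_add t.1, htlin, htz, map_add g.1, map_add g.1, hθ _ z hzz, map_add s.1, hslin,
        hsz, smul_smul, hθ _ z hzz, map_mul, mul_smul, hsu _ hu3 hu4, htu u hu1 hu2, map_mul,
        smul_smul]
    have e := heq f
    rw [htf, hgf, map_add, hsf, hslin, hsz, smul_smul] at e
    rw [e, map_mul]
  have hsq : ∀ m : K, m ≠ 0 → g.1 ((m * m) • f) = θ (m * m) • f' + (β * (θ (m * m))⁻¹) • g.1 z := by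
    intro m hm
    have := hmain m⁻¹ (inv_ne_zero hm)
    rwa [← mul_inv, inv_inv, map_inv₀, inv_inv] at this
  have hzero : β = 0 := by
    have hφ : ∀ m : K, m ≠ 0 → polar QK f' (g.1 ((m * m) • f)) = β * (θ (m * m))⁻¹ := by
      intro m hm
      rw [hsq m hm, polar_add_right, polar_smul_right, polar_smul_right, hS.sing_iff.1 hf'q,
        polar_comm QK f', hgzf']
      simp
    obtain ⟨t, h1, h2, h3, h4⟩ := hS.exists_param
    have e := hφ (1 + t * t) h3
    rw [show (1 + t * t) * (1 + t * t) = (2 * t) * (2 * t) + (1 - t * t) * (1 - t * t) by ring,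
      add_smul, map_add, polar_add_right, hφ _ h1, hφ _ h2, map_add] at e
    have ha : θ ((2 * t) * (2 * t)) ≠ 0 := (map_ne_zero θ).2 (mul_ne_zero h1 h1)
    have hb : θ ((1 - t * t) * (1 - t * t)) ≠ 0 := (map_ne_zero θ).2 (mul_ne_zero h2 h2)
    have hab : θ ((2 * t) * (2 * t)) + θ ((1 - t * t) * (1 - t * t)) ≠ 0 := by
      rw [← map_add, show (2 * t) * (2 * t) + (1 - t * t) * (1 - t * t) =
        (1 + t * t) * (1 + t * t) by ring]
      exact (map_ne_zero θ).2 (mul_ne_zero h3 h3)
    obtain ⟨A, hA⟩ : ∃ A, A = θ ((2 * t) * (2 * t)) := ⟨_, rfl⟩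
    obtain ⟨B, hB⟩ : ∃ B, B = θ ((1 - t * t) * (1 - t * t)) := ⟨_, rfl⟩
    have h4' : A * A + A * B + B * B ≠ 0 := by
      rw [hA, hB, ← map_mul, ← map_mul, ← map_mul, ← map_add, ← map_add]
      exact (map_ne_zero θ).2 h4
    rw [← hA] at ha hab e
    rw [← hB] at hb hab e
    field_simp at e
    exact (mul_eq_zero.1 (show β * (A * A + A * B + B * B) = 0 by linear_combination e)).resolve_right
      h4'
  have hgf' : ∀ k, g.1 (k • f) = θ k • g.1 f := by
    have hone : ∀ m : K, g.1 ((m * m) • f) = θ (m * m) • g.1 f := by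
      intro m
      rcases eq_or_ne m 0 with rfl | hm
      · simp
      rw [hsq m hm, hgf, hzero]
      simp
    intro k
    obtain ⟨a, b, hab⟩ := exists_two_squares hS.twoK (one_ne_zero (α := K)) one_ne_zero k
    rw [mul_one, mul_one] at hab
    rw [← hab, add_smul, map_add g.1, hone, hone, map_add θ, add_smul]
  intro k x
  have hy : polar QK z (x - polar QK z x • f) = 0 := by
    rw [polar_sub_right, polar_smul_right, hzf, smul_eq_mul, mul_one, sub_self]
  calc g.1 (k • x) = g.1 (k • (x - polar QK z x • f) + (k * polar QK z x) • f) := by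
        congr 1; module
    _ = θ k • g.1 (x - polar QK z x • f) + θ k • g.1 (polar QK z x • f) := by
        rw [map_add, hθ _ _ hy, hgf', hgf', map_mul, mul_smul]
    _ = θ k • g.1 x := by rw [← smul_add, ← map_add, sub_add_cancel]

end Setup

end Cfsg.Agent.MaxSub.OrthExtNine
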