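import Cfsg.Agent.MaxSub.OrthExtNine.Key

/-!
Two members meeting properly give a nontrivial element fixing a hyperplane pointwise.
-/

set_option autoImplicit false
set_option linter.unusedSectionVars false
set_option linter.style.haveILetI false

namespace Cfsg.Agent.MaxSub.OrthExtNine

open QuadraticMap Module Cfsg.Agent.Classical Cfsg.Agent.OrthGen
open Cfsg.Agent.MaxSub.OrthExt (Sk Sk_apply IsSkew Elt Cent AllSk IsLin exists_two_squares
  exists_common_zero img mem_img finrank_img kline_eq finrank_inf_perp)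
open Cfsg.Agent.MaxSub.ExtField (kline mem_kline self_mem_kline smul_mem_kline finrank_kline)

universe u v w

/-- The trace of an extension of finite fields, as a hyperplane. -/
lemma finrank_ker_trace {F K : Type*} [Field F] [Finite F] [Field K] [Algebra F K]
    [FiniteDimensional F K] (hr : finrank F K = 3) :
    finrank F (LinearMap.ker (Algebra.trace F K)) = 2 := by
  have h1 := LinearMap.finrank_range_add_finrank_ker (Algebra.trace F K)
  rw [LinearMap.range_eq_top.2 (Algebra.trace_surjective F K), finrank_top, Module.finrank_self,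
    hr] at h1
  omega

variable {F : Type u} {K : Type v} {V : Type w} [Field F] [Field K] [Algebra F K] [AddCommGroup V]
  [Module F V] [Module K V] [IsScalarTower F K V] [Finite K] [FiniteDimensional F K]
  [FiniteDimensional K V] {Q : QuadraticForm F V}

namespace Setup

variable {QK : QuadraticForm K V} {M : Subgroup (OQ Q)} (hS : Setup QK M)
include hS

lemma mem_line_of_sing {d x : V} (hd : QK d = 0) (hd0 : d ≠ 0) (hx : QK x = 0)
    (hdx : polar QK d x = 0) : ∃ c : K, c • d = x := by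
  obtain ⟨f, hf, hdf⟩ := hS.exists_partner hd hd0
  obtain ⟨h, h1, -, hh, hdec⟩ := hS.exists_mid hd hf (by rw [hdf]; exact one_ne_zero)
  have e := hdec x
  rw [hdx, zero_div, zero_smul, add_zero] at e
  have e2 := congrArg QK e
  rw [hx, qf_add, QuadraticMap.map_smul, QuadraticMap.map_smul, polar_smul_left, polar_smul_right,
    hd, h1] at e2
  simp [hh] at e2
  rcases e2 with h0 | h0
  · rw [h0, zero_div, zero_smul, add_zero] at e
    exact ⟨_, e.symm⟩
  · exact absurd h0 hS.twoK

lemma mem_range_of_quadratic {r : K} {c e : F}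
    (h : r * r + algebraMap F K c * r + algebraMap F K e = 0) :
    ∃ t : F, r = algebraMap F K t := by
  by_contra hn
  push Not at hn
  have hdvd := minpoly.degree_dvd (K := F) (L := K) (x := r) (Algebra.IsIntegral.isIntegral r)
  let P : Polynomial F := Polynomial.C 1 * Polynomial.X ^ 2 + Polynomial.C c * Polynomial.X +
    Polynomial.C e
  have hP0 : P ≠ 0 := fun e' => one_ne_zero (α := F) (by
    simpa [P, Polynomial.coeff_X, Polynomial.coeff_C, Polynomial.coeff_one]
      using congrArg (fun p => p.coeff 2) e')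
  have hP : Polynomial.aeval r P = 0 := by simpa [P, pow_two] using h
  have hle := (Polynomial.natDegree_le_of_dvd (minpoly.dvd F r hP) hP0).trans
    Polynomial.natDegree_quadratic_le
  rw [hS.rank] at hdvd
  rcases Nat.prime_three.eq_one_or_self_of_dvd _ hdvd with h' | h'
  · obtain ⟨t, ht⟩ := (minpoly.natDegree_eq_one_iff).1 h'
    exact hn t ht.symm
  · omega

lemma exists_isotropic {η : K} : ∃ y : K, y ≠ 0 ∧ Algebra.trace F K (η * (y * y)) = 0 := by
  haveI := hS.finiteF
  obtain ⟨y, hy, h⟩ := exists_common_zero (F := F) (W := K) (ι := Fin 1) (fun _ => 0)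
    (fun _ => LinearMap.mk₂ F (fun a b => Algebra.trace F K (η * (a * b)))
      (fun a a' b => by rw [add_mul, mul_add, map_add])
      (fun t a b => by rw [smul_mul_assoc, mul_smul_comm, map_smul])
      (fun a b b' => by rw [mul_add, mul_add, map_add])
      (fun t a b => by rw [mul_smul_comm, mul_smul_comm, map_smul]))
    (by rw [Fintype.card_fin, hS.rank]; norm_num)
  exact ⟨y, hy, by simpa using h 0⟩

lemma eq_algebraMap_of_perp {x x' μ : K} (hx : Algebra.trace F K x = 0)
    (hx' : Algebra.trace F K x' = 0) (hli : LinearIndependent F ![x, x'])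
    (h : Algebra.trace F K (μ * x) = 0) (h' : Algebra.trace F K (μ * x') = 0) :
    ∃ c : F, μ = algebraMap F K c := by
  haveI := hS.finiteF
  obtain ⟨H, hH⟩ := Algebra.trace_surjective F K (1 : F)
  have hspan : Submodule.span F (Set.range ![x, x']) = LinearMap.ker (Algebra.trace F K) := by
    refine Submodule.eq_of_le_of_finrank_eq (Submodule.span_le.2 ?_) ?_
    · rintro _ ⟨i, rfl⟩
      fin_cases i
      · exact hx
      · exact hx'
    · rw [finrank_span_eq_card hli, Fintype.card_fin, finrank_ker_trace hS.rank]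
  refine ⟨Algebra.trace F K (μ * H), hS.ext_tr fun l => ?_⟩
  have hmem : l - Algebra.trace F K l • H ∈ Submodule.span F ({x, x'} : Set K) := by
    rw [show ({x, x'} : Set K) = Set.range ![x, x'] by
      rw [Matrix.range_cons, Matrix.range_cons, Matrix.range_empty, Set.union_empty,
        Set.singleton_union], hspan, LinearMap.mem_ker, map_sub, map_smul, hH, smul_eq_mul, mul_one,
      sub_self]
  obtain ⟨a, b, hab⟩ := Submodule.mem_span_pair.1 hmem
  have e := congrArg (fun k => Algebra.trace F K (μ * k)) hab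
  simp only [mul_add, mul_sub, mul_smul_comm, map_add, map_sub, map_smul, h, h', smul_zero,
    add_zero, smul_eq_mul] at e
  rw [mul_comm l μ, mul_comm l (algebraMap F K _), ← Algebra.smul_def, map_smul, smul_eq_mul]
  linear_combination -e

/-- An isotropic vector of the trace form off one hyperplane and off one line. -/
lemma exists_good_isotropic {η x x' c : K} (hη : η ≠ 0) (hx0 : x ≠ 0)
    (hx : Algebra.trace F K x = 0) (hx' : Algebra.trace F K x' = 0)
    (hli : LinearIndependent F ![x, x']) (hc : c ≠ 0) :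
    ∃ y : K, y ≠ 0 ∧ Algebra.trace F K (η * (y * y)) = 0 ∧ Algebra.trace F K (y * c) ≠ 0 ∧
      Algebra.trace F K (η * (y * y) / x * x') ≠ 0 := by
  classical
  haveI := hS.finiteF
  obtain ⟨e, he0, he⟩ := hS.exists_isotropic (η := η)
  obtain ⟨l, hl⟩ := hS.exists_tr_ne (mul_ne_zero hη he0)
  obtain ⟨B, hB⟩ : ∃ B : K → K → F, ∀ a b, B a b = Algebra.trace F K (η * (a * b)) :=
    ⟨_, fun _ _ => rfl⟩
  have Badd : ∀ a b b', B a (b + b') = B a b + B a b' := fun a b b' => by
    simp only [hB, mul_add, map_add]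
  have Bsub : ∀ a b b', B a (b - b') = B a b - B a b' := fun a b b' => by
    simp only [hB, mul_sub, map_sub]
  have Bsmul : ∀ (t : F) a b, B a (t • b) = t * B a b := fun t a b => by
    simp only [hB, mul_smul_comm, map_smul, smul_eq_mul]
  have Bcomm : ∀ a b, B a b = B b a := fun a b => by simp only [hB, mul_comm a b]
  have hee : B e e = 0 := by rw [hB]; exact he
  obtain ⟨l', hl'⟩ : ∃ l', B e l' = 1 := ⟨(Algebra.trace F K (l * (η * e)))⁻¹ • l, by
    rw [Bsmul, hB, show η * (e * l) = l * (η * e) by ring, inv_mul_cancel₀ hl]⟩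
  obtain ⟨f, hef, hff⟩ : ∃ f, B e f = 1 ∧ B f f = 0 := by
    refine ⟨l' - (B l' l' / 2) • e, by rw [Bsub, Bsmul, hl', hee, mul_zero, sub_zero], ?_⟩
    rw [Bsub, Bcomm _ l', Bsub, Bsmul, Bsmul, Bcomm l' e, hl', Bcomm _ e, Bsub, Bsmul, hl', hee]
    have := hS.two
    field_simp
    ring
  let φ : K →ₗ[F] F × F :=
    { toFun := fun k => (B e k, B f k)
      map_add' := fun a b => by simp [Badd]
      map_smul' := fun t a => by simp [Bsmul] }
  obtain ⟨h, hh, hh0⟩ := (Submodule.ne_bot_iff (LinearMap.ker φ)).1 (by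
    intro hb
    have h1 := LinearMap.finrank_range_add_finrank_ker φ
    have h2 := (LinearMap.range φ).finrank_le
    rw [hb, finrank_bot, hS.rank] at h1
    rw [Module.finrank_prod, Module.finrank_self] at h2
    omega)
  obtain ⟨heh, hfh⟩ : B e h = 0 ∧ B f h = 0 :=
    Prod.ext_iff.1 (show (B e h, B f h) = (0, 0) from hh)
  have hbase : LinearIndependent F ![e, f, h] := by
    rw [Fintype.linearIndependent_iff]
    intro g hg
    simp only [Fin.sum_univ_three, Matrix.cons_val_zero, Matrix.cons_val_one, Matrix.cons_val_two,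
      Matrix.head_cons, Matrix.tail_cons] at hg
    have e1 := congrArg (B e) hg
    have e2 := congrArg (B f) hg
    have hz : ∀ a, B a 0 = 0 := fun a => by rw [hB, mul_zero, mul_zero, map_zero]
    simp only [Badd, Bsmul, hz, hee, hef, heh, Bcomm f e, hff, hfh, mul_zero, mul_one, add_zero,
      zero_add] at e1 e2
    rw [e1, e2, zero_smul, zero_smul, zero_add, zero_add, smul_eq_zero] at hg
    intro i
    fin_cases i
    · exact e2
    · exact e1
    · exact hg.resolve_right hh0
  have hsp : ∀ k, ∃ a b d : F, k = a • e + b • f + d • h := fun k => by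
    let bs := basisOfLinearIndependentOfCardEqFinrank hbase (by rw [Fintype.card_fin, hS.rank])
    refine ⟨bs.repr k 0, bs.repr k 1, bs.repr k 2, ?_⟩
    conv_lhs => rw [← bs.sum_repr k]
    simp [bs, Fin.sum_univ_three]
  obtain ⟨a, ha⟩ : ∃ a, a = B h h := ⟨_, rfl⟩
  have ha0 : a ≠ 0 := by
    intro h0
    obtain ⟨m, hm⟩ := hS.exists_tr_ne (mul_ne_zero hη hh0)
    obtain ⟨p, q, r, rfl⟩ := hsp m
    apply hm
    have : B h (p • e + q • f + r • h) = 0 := by
      rw [Badd, Badd, Bsmul, Bsmul, Bsmul, Bcomm h e, heh, Bcomm h f, hfh, ← ha, h0]; ring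
    rw [hB] at this
    rwa [show (p • e + q • f + r • h) * (η * h) = η * (h * (p • e + q • f + r • h)) by ring]
  obtain ⟨P, hP⟩ : ∃ P : F → K, ∀ s, P s = (-a / 2) • e + f + s • h := ⟨_, fun _ => rfl⟩
  have hPe : ∀ s, B e (P s) = 1 := fun s => by
    rw [hP, Badd, Badd, Bsmul, Bsmul, hee, hef, heh]; ring
  have hPf : ∀ s, B f (P s) = -a / 2 := fun s => by
    rw [hP, Badd, Badd, Bsmul, Bsmul, hff, hfh, Bcomm f e, hef]; ring
  have hPh : ∀ s, B h (P s) = s * a := fun s => by
    rw [hP, Badd, Badd, Bsmul, Bsmul, Bcomm h e, heh, Bcomm h f, hfh, ← ha]; ring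
  have hPP : ∀ s, s * s = 1 → B (P s) (P s) = 0 := fun s hs => by
    nth_rewrite 2 [hP]
    rw [Badd, Badd, Bsmul, Bsmul, Bcomm _ e, hPe, Bcomm _ f, hPf, Bcomm _ h, hPh]
    have := hS.two
    field_simp
    linear_combination 2 * a * hs
  -- two isotropic vectors failing the second condition are proportional
  have hline : ∀ y y', y' ≠ 0 → B y y = 0 → B y' y' = 0 →
      Algebra.trace F K (η * (y * y) / x * x') = 0 → Algebra.trace F K (η * (y' * y') / x * x') = 0 →
      ∃ t : F, y = t • y' := by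
    intro y y' hy' hy hy'' h1 h2
    rw [hB] at hy hy''
    obtain ⟨s, hs⟩ := hS.eq_algebraMap_of_perp hx hx' hli
      (by rwa [div_mul_cancel₀ _ hx0]) h1
    obtain ⟨s', hs'⟩ := hS.eq_algebraMap_of_perp hx hx' hli
      (by rwa [div_mul_cancel₀ _ hx0]) h2
    have hsq : (y / y') * (y / y') = algebraMap F K (s / s') := by
      rw [map_div₀, ← hs, ← hs']
      field_simp
    have hT : ∀ r : K, ∀ c : F, r * r = algebraMap F K c → ∃ t : F, r = algebraMap F K t := by
      intro r c hc
      by_contra hn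
      push Not at hn
      have hdvd := minpoly.degree_dvd (K := F) (L := K) (x := r) (Algebra.IsIntegral.isIntegral r)
      have hpol : Polynomial.aeval r (Polynomial.X ^ 2 - Polynomial.C c) = 0 := by
        simp [pow_two, hc]
      have hle := Polynomial.natDegree_le_of_dvd (minpoly.dvd F r hpol)
        (Polynomial.X_pow_sub_C_ne_zero (by norm_num) _)
      rw [Polynomial.natDegree_X_pow_sub_C] at hle
      rw [hS.rank] at hdvd
      rcases Nat.prime_three.eq_one_or_self_of_dvd _ hdvd with h | h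
      · obtain ⟨t, ht⟩ := (minpoly.natDegree_eq_one_iff).1 h
        exact hn t ht.symm
      · omega
    obtain ⟨t, ht⟩ := hT _ _ hsq
    exact ⟨t, by rw [Algebra.smul_def, ← ht, div_mul_cancel₀ _ hy']⟩
  obtain ⟨y₁, y₂, hy₁, hy₂, hy₂0, hb₁, hb₂, hnp⟩ : ∃ y₁ y₂ : K, B y₁ y₁ = 0 ∧ B y₂ y₂ = 0 ∧
      y₂ ≠ 0 ∧ Algebra.trace F K (y₁ * c) ≠ 0 ∧ Algebra.trace F K (y₂ * c) ≠ 0 ∧
      ∀ t : F, y₁ ≠ t • y₂ := by
    have hne : ∀ {y : K}, Algebra.trace F K (y * c) ≠ 0 → y ≠ 0 := fun hy e => by simp [e] at hy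
    have hz : ∀ a, B a 0 = 0 := fun a => by rw [hB, mul_zero, mul_zero, map_zero]
    have hbP : ∀ s, Algebra.trace F K (P s * c) = (-a / 2) * Algebra.trace F K (e * c) +
        Algebra.trace F K (f * c) + s * Algebra.trace F K (h * c) := fun s => by
      simp only [hP, add_mul, smul_mul_assoc, map_add, map_smul, smul_eq_mul]
    have h2 := hS.two
    by_cases b0 : Algebra.trace F K (e * c) = 0 <;> by_cases b1 : Algebra.trace F K (f * c) = 0
    · have bh : Algebra.trace F K (h * c) ≠ 0 := fun bh => by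
        obtain ⟨m, hm⟩ := hS.exists_tr_ne hc
        obtain ⟨p, q, r, rfl⟩ := hsp m
        simp [add_mul, b0, b1, bh] at hm
      refine ⟨P 1, P (-1), hPP 1 (one_mul 1), hPP (-1) (by ring), hne ?_, ?_, ?_, fun t ht => ?_⟩
      iterate 3 simp [hbP, b0, b1, bh]
      have e1 := congrArg (B e) ht
      have e2 := congrArg (B h) ht
      rw [Bsmul, hPe, hPe, mul_one] at e1
      rw [Bsmul, hPh, hPh, ← e1] at e2
      exact mul_ne_zero h2 ha0 (by linear_combination e2)
    · obtain ⟨s, hs, hbs⟩ : ∃ s : F, s * s = 1 ∧ Algebra.trace F K (P s * c) ≠ 0 := by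
        by_contra hcon
        push Not at hcon
        have e1 := hcon 1 (one_mul 1)
        have e2 := hcon (-1) (by ring)
        simp only [hbP, b0] at e1 e2
        exact b1 ((mul_eq_zero.1 (show (2 : F) * Algebra.trace F K (f * c) = 0 by
          linear_combination e1 + e2)).resolve_left h2)
      refine ⟨f, P s, hff, hPP s hs, hne hbs, b1, hbs, fun t ht => ?_⟩
      have e1 := congrArg (B e) ht
      have e2 := congrArg (B f) ht
      rw [Bsmul, hef, hPe, mul_one] at e1
      rw [Bsmul, hff, hPf, ← e1, one_mul, eq_comm, div_eq_zero_iff, neg_eq_zero] at e2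
      exact e2.elim ha0 h2
    · obtain ⟨s, hs, hbs⟩ : ∃ s : F, s * s = 1 ∧ Algebra.trace F K (P s * c) ≠ 0 := by
        by_contra hcon
        push Not at hcon
        have e1 := hcon 1 (one_mul 1)
        have e2 := hcon (-1) (by ring)
        simp only [hbP, b1] at e1 e2
        have e3 : a * Algebra.trace F K (e * c) = 0 := by
          field_simp at e1 e2
          exact (mul_eq_zero.1 (show (2 : F) * (a * Algebra.trace F K (e * c)) = 0 by
            linear_combination -e1 - e2)).resolve_left h2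
        exact b0 ((mul_eq_zero.1 e3).resolve_left ha0)
      refine ⟨e, P s, hee, hPP s hs, hne hbs, b0, hbs, fun t ht => ?_⟩
      have e1 := congrArg (B e) ht
      rw [Bsmul, hee, hPe, mul_one] at e1
      rw [← e1, zero_smul] at ht
      exact he0 ht
    · refine ⟨e, f, hee, hff, hne b1, b0, b1, fun t ht => ?_⟩
      have e1 := congrArg (B e) ht
      rw [Bsmul, hee, hef, mul_one] at e1
      rw [← e1, zero_smul] at ht
      exact he0 ht
  by_cases hA : Algebra.trace F K (η * (y₁ * y₁) / x * x') = 0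
  · refine ⟨y₂, hy₂0, hB y₂ y₂ ▸ hy₂, hb₂, fun hA' => ?_⟩
    obtain ⟨t, ht⟩ := hline y₁ y₂ hy₂0 hy₁ hy₂ hA hA'
    exact hnp t ht
  · exact ⟨y₁, fun e => by simp [e] at hb₁, hB y₁ y₁ ▸ hy₁, hb₁, hA⟩

/-- A Siegel transformation along the line moving the member orthogonally to one of its vectors. -/
lemma exists_twist {P : Submodule F V} (hP : finrank F P = 3)
    (hPs : ∀ a ∈ P, ∀ b ∈ P, polar Q a b = 0) {d h : V} (hd : d ∈ P) (hne : ¬ P ≤ kline F K d)
    (hh : QK h ≠ 0) (hdh : polar QK d h = 0) (hdd : polar QK d d = 0)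
    (hker : ∀ w ∈ P, polar QK d w = 0 → w ∈ kline F K d) :
    ∃ u ∈ P, polar QK d u ≠ 0 ∧ ∃ α : K, α ≠ 0 ∧ ∀ w ∈ P,
      polar Q (w + polar QK d w • α • h - polar QK (α • h) w • d -
        (QK (α • h) * polar QK d w) • d) u = 0 := by
  classical
  haveI := hS.finiteF
  haveI := hS.finiteDim
  obtain ⟨η, hη⟩ : ∃ η, η = QK h := ⟨_, rfl⟩
  have hη0 : η ≠ 0 := hη ▸ hh
  let Z : P →ₗ[F] K := ((QK.polarBilin d).restrictScalars F) ∘ₗ P.subtype
  have hZ : ∀ w : P, Z w = polar QK d (w : V) := fun w => rfl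
  have hZtr : ∀ w ∈ P, Algebra.trace F K (polar QK d w) = 0 := fun w hw => by
    rw [← hS.polar_trace, hPs d hd w hw]
  have hform : ∀ (α : K), ∀ u ∈ P, ∀ w ∈ P,
      polar Q (w + polar QK d w • α • h - polar QK (α • h) w • d -
        (QK (α • h) * polar QK d w) • d) u =
      Algebra.trace F K (α * (polar QK d w * polar QK h u - polar QK h w * polar QK d u)) -
        Algebra.trace F K (η * (α * α) * (polar QK d w * polar QK d u)) := by
    intro α u hu w hw
    rw [hS.polar_trace, polar_sub_left, polar_sub_left, polar_add_left, map_sub, map_sub, map_add,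
      ← hS.polar_trace w, hPs w hw u hu, zero_add, ← map_sub, ← map_sub, ← map_sub]
    congr 1
    simp only [polar_smul_left, QuadraticMap.map_smul, smul_eq_mul, hη]
    ring
  have hfix : ∀ (α : K) (u : V), u ∈ P → ∀ w ∈ P, polar QK d w = 0 →
      polar Q (w + polar QK d w • α • h - polar QK (α • h) w • d -
        (QK (α • h) * polar QK d w) • d) u = 0 := by
    intro α u hu w hw hw0
    obtain ⟨c, rfl⟩ := mem_kline.1 (hker w hw hw0)
    rw [hform α u hu _ hw, hw0]
    simp [polar_smul_right, polar_comm QK h d, hdh]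
  obtain ⟨u₀, hu₀, hdu₀⟩ : ∃ u ∈ P, polar QK d u ≠ 0 := by
    by_contra hcon
    push Not at hcon
    exact hne fun w hw => hker w hw (hcon w hw)
  by_cases hone : ∀ w ∈ P, ∃ c : F, polar QK d w = c • polar QK d u₀
  · obtain ⟨y, hy0, hy⟩ := hS.exists_isotropic (η := η)
    refine ⟨u₀, hu₀, hdu₀, y / polar QK d u₀, div_ne_zero hy0 hdu₀, fun w hw => ?_⟩
    obtain ⟨c, hc⟩ := hone w hw
    have hm : w - c • u₀ ∈ P := sub_mem hw (P.smul_mem c hu₀)
    have h0 := hfix (y / polar QK d u₀) u₀ hu₀ _ hm (by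
      rw [polar_sub_right, ← algebraMap_smul K c u₀, polar_smul_right, algebraMap_smul, ← hc,
        sub_self])
    have h1 : polar Q (u₀ + polar QK d u₀ • (y / polar QK d u₀) • h -
        polar QK ((y / polar QK d u₀) • h) u₀ • d -
        (QK ((y / polar QK d u₀) • h) * polar QK d u₀) • d) u₀ = 0 := by
      rw [hform _ u₀ hu₀ u₀ hu₀, show polar QK d u₀ * polar QK h u₀ - polar QK h u₀ * polar QK d u₀
        = 0 by ring, mul_zero, map_zero, zero_sub, neg_eq_zero]
      rw [show η * (y / polar QK d u₀ * (y / polar QK d u₀)) * (polar QK d u₀ * polar QK d u₀) =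
        η * (y * y) by field_simp]
      exact hy
    rw [hform _ u₀ hu₀ _ hm] at h0
    rw [hform _ u₀ hu₀ u₀ hu₀] at h1
    rw [hform _ u₀ hu₀ _ hw]
    simp only [polar_sub_right, ← algebraMap_smul K c u₀, polar_smul_right, smul_eq_mul] at h0
    have e : Algebra.trace F K ((y / polar QK d u₀) * (polar QK d w * polar QK h u₀ -
          polar QK h w * polar QK d u₀)) -
        Algebra.trace F K (η * ((y / polar QK d u₀) * (y / polar QK d u₀)) *
          (polar QK d w * polar QK d u₀)) = 0 + c • (0 : F) := by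
      refine Eq.trans ?_ (congrArg₂ (fun p q => p + c • q) h0 h1)
      rw [smul_sub, ← map_smul, ← map_smul, ← map_sub, ← map_sub, ← map_sub, ← map_add]
      congr 1
      simp only [Algebra.smul_def]
      ring
    simpa using e
  · push Not at hone
    obtain ⟨v₀, hv₀, hv₀n⟩ := hone
    have hrange : LinearMap.range Z = LinearMap.ker (Algebra.trace F K) := by
      refine Submodule.eq_of_le_of_finrank_le ?_ ?_
      · rintro _ ⟨w, rfl⟩
        exact hZtr _ w.2
      · rw [finrank_ker_trace hS.rank]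
        have hli : LinearIndependent F ![polar QK d u₀, polar QK d v₀] :=
          (LinearIndependent.pair_iff' hdu₀).2 fun c hc => hv₀n c hc.symm
        have hsub : Submodule.span F (Set.range ![polar QK d u₀, polar QK d v₀]) ≤
            LinearMap.range Z := by
          rw [Submodule.span_le]
          rintro _ ⟨i, rfl⟩
          fin_cases i
          · exact ⟨⟨u₀, hu₀⟩, rfl⟩
          · exact ⟨⟨v₀, hv₀⟩, rfl⟩
        have := Submodule.finrank_mono hsub
        rwa [finrank_span_eq_card hli, Fintype.card_fin] at this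
    by_cases hscal : ∃ κ : K, ∀ w ∈ P, polar QK h w = κ * polar QK d w
    · obtain ⟨κ, hκ⟩ := hscal
      obtain ⟨y, hy0, hy⟩ := hS.exists_isotropic (η := η)
      obtain ⟨x, hx⟩ : ∃ x, x = η * (y * y) := ⟨_, rfl⟩
      have hx0 : x ≠ 0 := hx ▸ mul_ne_zero hη0 (mul_ne_zero hy0 hy0)
      obtain ⟨⟨u, hu⟩, hux⟩ := hrange.ge (show x ∈ LinearMap.ker (Algebra.trace F K) by
        rw [LinearMap.mem_ker, hx, hy])
      rw [hZ] at hux
      refine ⟨u, hu, by rw [hux]; exact hx0, y / x, div_ne_zero hy0 hx0, fun w hw => ?_⟩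
      rw [hform _ u hu w hw, hκ u hu, hκ w hw, show polar QK d w * (κ * polar QK d u) -
        κ * polar QK d w * polar QK d u = 0 by ring, mul_zero, map_zero, zero_sub, neg_eq_zero,
        hux, show η * (y / x * (y / x)) * (polar QK d w * x) = polar QK d w by
          rw [hx]; field_simp]
      exact hZtr w hw
    · push Not at hscal
      obtain ⟨v, hv, hvn⟩ := hscal (polar QK h u₀ / polar QK d u₀)
      obtain ⟨c, hc⟩ : ∃ c, c = polar QK d v * polar QK h u₀ - polar QK h v * polar QK d u₀ :=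
        ⟨_, rfl⟩
      have hc0 : c ≠ 0 := fun e => hvn (by
        rw [hc, sub_eq_zero] at e
        field_simp
        linear_combination -e)
      have hli : LinearIndependent F ![polar QK d u₀, polar QK d v] := by
        refine (LinearIndependent.pair_iff' hdu₀).2 fun s hs => hc0 ?_
        have hm : v - s • u₀ ∈ P := sub_mem hv (P.smul_mem s hu₀)
        obtain ⟨k, hk⟩ := mem_kline.1 (hker _ hm (by
          rw [polar_sub_right, ← algebraMap_smul K s u₀, polar_smul_right, algebraMap_smul, hs,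
            sub_self]))
        have e1 := congrArg (polar QK h) hk
        rw [polar_sub_right, ← algebraMap_smul K s u₀, polar_smul_right, polar_smul_right,
          polar_comm QK h d, hdh, smul_zero, smul_eq_mul] at e1
        rw [Algebra.smul_def] at hs
        rw [hc, ← hs]
        linear_combination (polar QK d u₀) * e1
      have hx := hZtr u₀ hu₀
      have hx' := hZtr v hv
      obtain ⟨y, hy0, hy, hB', hA⟩ := hS.exists_good_isotropic hη0 hdu₀ hx hx' hli
        (c := c / polar QK d u₀) (div_ne_zero hc0 hdu₀)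
      obtain ⟨t, ht⟩ : ∃ t : F, t = Algebra.trace F K (y * (c / polar QK d u₀)) /
          Algebra.trace F K (η * (y * y) / polar QK d u₀ * polar QK d v) := ⟨_, rfl⟩
      have ht0 : t ≠ 0 := ht ▸ div_ne_zero hB' hA
      obtain ⟨α, hα⟩ : ∃ α, α = algebraMap F K t * (y / polar QK d u₀) := ⟨_, rfl⟩
      refine ⟨u₀, hu₀, hdu₀, α, hα ▸ mul_ne_zero ((map_ne_zero _).2 ht0) (div_ne_zero hy0 hdu₀),
        fun w hw => ?_⟩
      let Φ : P →ₗ[F] F :=
        { toFun := fun w => Algebra.trace F K (α * (polar QK d (w : V) * polar QK h u₀ -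
              polar QK h (w : V) * polar QK d u₀)) -
            Algebra.trace F K (η * (α * α) * (polar QK d (w : V) * polar QK d u₀))
          map_add' := fun a b => by
            simp only [Submodule.coe_add, polar_add_right, add_mul, mul_add, mul_sub, map_sub,
              map_add]
            ring
          map_smul' := fun s a => by
            simp only [Submodule.coe_smul_of_tower, ← algebraMap_smul K s (a : V), polar_smul_right,
              smul_eq_mul, RingHom.id_apply]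
            rw [mul_sub (s : F), ← smul_eq_mul s, ← smul_eq_mul s, ← map_smul, ← map_smul]
            simp only [Algebra.smul_def]
            congr 2 <;> ring }
      have hΦker : ∀ w : P, polar QK d (w : V) = 0 → Φ w = 0 := fun w hw0 => by
        have := hfix α u₀ hu₀ w w.2 hw0
        rw [hform α u₀ hu₀ w w.2] at this
        exact this
      have hsq : η * (α * α) * (polar QK d u₀ * polar QK d u₀) =
          algebraMap F K (t * t) * (η * (y * y)) := by
        rw [hα, map_mul]; field_simp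
      have hΦu : Φ ⟨u₀, hu₀⟩ = 0 := by
        show _ - _ = (0 : F)
        rw [show polar QK d u₀ * polar QK h u₀ - polar QK h u₀ * polar QK d u₀ = 0 by ring,
          mul_zero, map_zero, zero_sub, neg_eq_zero, hsq, ← Algebra.smul_def, map_smul, hy,
          smul_zero]
      have hΦv : Φ ⟨v, hv⟩ = 0 := by
        show _ - _ = (0 : F)
        rw [← hc, show α * c = algebraMap F K t * (y * (c / polar QK d u₀)) by rw [hα]; ring,
          show η * (α * α) * (polar QK d v * polar QK d u₀) =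
            algebraMap F K (t * t) * (η * (y * y) / polar QK d u₀ * polar QK d v) by
            rw [hα, map_mul]; field_simp,
          ← Algebra.smul_def, ← Algebra.smul_def, map_smul, map_smul, smul_eq_mul, smul_eq_mul,
          mul_assoc, ← mul_sub, mul_eq_zero, sub_eq_zero]
        exact Or.inr (by rw [ht, div_mul_cancel₀ _ hA])
      rw [hform α u₀ hu₀ w hw]
      show Φ ⟨w, hw⟩ = 0
      have hmem : polar QK d w ∈ Submodule.span F ({polar QK d u₀, polar QK d v} : Set K) := by
        rw [show ({polar QK d u₀, polar QK d v} : Set K) =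
            Set.range ![polar QK d u₀, polar QK d v] by
          rw [Matrix.range_cons, Matrix.range_cons, Matrix.range_empty, Set.union_empty,
            Set.singleton_union]]
        rw [Submodule.eq_of_le_of_finrank_eq (S₁ := Submodule.span F _)
          (S₂ := LinearMap.ker (Algebra.trace F K)) ?_ ?_]
        · exact hZtr w hw
        · rw [Submodule.span_le]
          rintro _ ⟨i, rfl⟩
          fin_cases i
          · exact hx
          · exact hx'
        · rw [finrank_span_eq_card hli, Fintype.card_fin, finrank_ker_trace hS.rank]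
      obtain ⟨a, b, hab⟩ := Submodule.mem_span_pair.1 hmem
      have h0 := hΦker (⟨w, hw⟩ - a • ⟨u₀, hu₀⟩ - b • ⟨v, hv⟩) (by
        show polar QK d (w - a • u₀ - b • v) = 0
        rw [polar_sub_right, polar_sub_right, ← algebraMap_smul K a u₀, ← algebraMap_smul K b v,
          polar_smul_right, polar_smul_right, algebraMap_smul, algebraMap_smul, ← hab]
        abel)
      rwa [map_sub, map_sub, map_smul, map_smul, hΦu, hΦv, smul_zero, smul_zero, sub_zero,
        sub_zero] at h0

/-- A maximal pair with a vector of the line orthogonal to the member. -/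
lemma exists_max {g₀ : OQ Q} (hg₀ : g₀ ∈ M) {z₀ y₀ : V} (hz₀ : QK z₀ = 0) (hz₀' : z₀ ≠ 0)
    (hy₀ : QK y₀ = 0) (hy₀' : y₀ ≠ 0) (hne₀ : img K g₀ z₀ ≠ kline F K y₀)
    (hmeet : img K g₀ z₀ ⊓ kline F K y₀ ≠ ⊥) :
    ∃ (g : OQ Q) (z y x₀ : V), g ∈ M ∧ QK z = 0 ∧ z ≠ 0 ∧ QK y = 0 ∧ y ≠ 0 ∧
      img K g z ≠ kline F K y ∧ img K g z ⊓ kline F K y ≠ ⊥ ∧ x₀ ∈ kline F K y ∧ x₀ ∉ img K g z ∧
      (∀ k : K, polar Q (g.1 (k • z)) x₀ = 0) ∧
      ∀ g' ∈ M, ∀ z' y', QK z' = 0 → z' ≠ 0 → QK y' = 0 → y' ≠ 0 →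
        finrank F ↥(img K g z ⊓ kline F K y) < finrank F ↥(img K g' z' ⊓ kline F K y') →
          img K g' z' = kline F K y' := by
  classical
  haveI := hS.finiteF
  haveI := hS.finiteDim
  let P : ℕ → Prop := fun e => ∃ (g : OQ Q) (z y : V), g ∈ M ∧ QK z = 0 ∧ z ≠ 0 ∧ QK y = 0 ∧
    y ≠ 0 ∧ img K g z ≠ kline F K y ∧ finrank F ↥(img K g z ⊓ kline F K y) = e
  have hP₀ : P (finrank F ↥(img K g₀ z₀ ⊓ kline F K y₀)) :=
    ⟨g₀, z₀, y₀, hg₀, hz₀, hz₀', hy₀, hy₀', hne₀, rfl⟩
  have hPle : ∀ e, P e → e ≤ finrank F K := by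
    rintro e ⟨g, z, y, -, -, -, -, hy, -, rfl⟩
    exact (Submodule.finrank_mono inf_le_right).trans_eq (finrank_kline hy)
  obtain ⟨em, hem⟩ : ∃ em, em = Nat.findGreatest P (finrank F K) := ⟨_, rfl⟩
  have hmP : P em := hem ▸ Nat.findGreatest_spec (hPle _ hP₀) hP₀
  have hm1 : 1 ≤ em := by
    refine le_trans ?_ (hem ▸ Nat.le_findGreatest (hPle _ hP₀) hP₀)
    rw [Nat.one_le_iff_ne_zero, Ne, Submodule.finrank_eq_zero]
    exact hmeet
  have hmax : ∀ g' ∈ M, ∀ z' y', QK z' = 0 → z' ≠ 0 → QK y' = 0 → y' ≠ 0 →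
      em < finrank F ↥(img K g' z' ⊓ kline F K y') → img K g' z' = kline F K y' := by
    intro g' hg' z' y' h1 h2 h3 h4 hlt
    by_contra hn
    have hP' : P _ := ⟨g', z', y', hg', h1, h2, h3, h4, hn, rfl⟩
    have := Nat.le_findGreatest (hPle _ hP') hP'
    omega
  obtain ⟨g, z, y, hg, hz, hz0, hy, hy0, hne, he⟩ := hmP
  have hbot : img K g z ⊓ kline F K y ≠ ⊥ := fun hb => by rw [hb, finrank_bot] at he; omega
  have hfU : finrank F (img K g z) = finrank F (kline F K y) := by
    rw [finrank_img hz0, finrank_kline hy0]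
  by_cases hx : ∃ x₀ ∈ kline F K y, x₀ ∉ img K g z ∧ ∀ k : K, polar Q (g.1 (k • z)) x₀ = 0
  · obtain ⟨x₀, h1, h2, h3⟩ := hx
    exact ⟨g, z, y, x₀, hg, hz, hz0, hy, hy0, hne, hbot, h1, h2, h3, by rw [he]; exact hmax⟩
  push Not at hx
  have hLU : kline F K y ⊓ perpSub Q (img K g z) ≤ img K g z := fun x hxm => by
    by_contra hn
    obtain ⟨k, hk⟩ := hx x hxm.1 hn
    exact hk (hxm.2 _ (mem_img.2 ⟨k, rfl⟩))
  obtain ⟨d, hd, hd0⟩ := (Submodule.ne_bot_iff _).1 hbot
  have hLd : kline F K d = kline F K y := kline_eq hd.2 hd0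
  have hdq : QK d = 0 := by
    obtain ⟨c, rfl⟩ := mem_kline.1 hd.2
    rw [QuadraticMap.map_smul, hy, smul_zero]
  have hdd : polar QK d d = 0 := hS.sing_iff.1 hdq
  obtain ⟨f, hf, hdf⟩ := hS.exists_partner hdq hd0
  obtain ⟨h, hdh, hfh, hh, -⟩ := hS.exists_mid hdq hf (by rw [hdf]; exact one_ne_zero)
  have hker : ∀ w ∈ img K g z, polar QK d w = 0 → w ∈ kline F K d := by
    have hle : img K g z ⊓ kline F K y ≤ img K g z ⊓ perpSub Q (kline F K y) :=
      le_inf inf_le_left fun x hxm n hn => hS.kline_polar hy hn hxm.2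
    have heq := Submodule.eq_of_le_of_finrank_le hle (by
      rw [← finrank_inf_perp hS.bnondeg hfU]
      exact Submodule.finrank_mono (le_inf hLU inf_le_left))
    intro w hw hw0
    have hm : w ∈ img K g z ⊓ perpSub Q (kline F K y) := ⟨hw, fun n hn => by
      obtain ⟨c, rfl⟩ := mem_kline.1 (hLd.symm ▸ hn)
      show polar Q (c • d) w = 0
      rw [hS.polar_smul, hw0, mul_zero, map_zero]⟩
    rw [← heq] at hm
    exact hLd.symm ▸ hm.2
  obtain ⟨u, hu, hdu, α, hα, hcond'⟩ := hS.exists_twist (P := img K g z)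
    (by rw [finrank_img hz0, hS.rank]) (fun a ha b hb => hS.img_polar hz ha hb) hd.1
    (fun hle => hne (Submodule.eq_of_le_of_finrank_eq (hLd ▸ hle) hfU)) hh hdh hdd hker
  have huL : u ∉ kline F K y := fun h => hdu (by
    obtain ⟨c, rfl⟩ := mem_kline.1 (hLd.symm ▸ h)
    rw [polar_smul_right, hdd, smul_zero])
  obtain ⟨a, ha⟩ : ∃ a, a = α • h := ⟨_, rfl⟩
  rw [← ha] at hcond'
  have hda : polar QK d a = 0 := by rw [ha, polar_smul_right, hdh, smul_zero]
  have hfa : polar QK f a = 0 := by rw [ha, polar_smul_right, hfh, smul_zero]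
  have ha0 : a ≠ 0 := ha ▸ smul_ne_zero hα fun e => hh (by rw [e, QuadraticMap.map_zero])
  obtain ⟨k, hk, hkx⟩ := hS.exists_siegel hdq hda
  have hfix : ∀ x ∈ kline F K y, k.1 x = x := by
    intro x hxm
    obtain ⟨c, rfl⟩ := mem_kline.1 (hLd.symm ▸ hxm)
    rw [hkx, polar_smul_right, polar_smul_right, hdd, polar_comm QK a d, hda]
    simp
  have hcond : ∀ w ∈ img K g z, polar Q (k.1 w) u = 0 := fun w hw => by
    rw [hkx]; exact hcond' w hw
  obtain ⟨y', hy'⟩ : ∃ y', y' = k.1 u - u := ⟨_, rfl⟩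
  have hy'L : y' ∉ kline F K y := by
    intro hm
    obtain ⟨c, hc⟩ := mem_kline.1 (hLd.symm ▸ hm)
    rw [hy', hkx] at hc
    have hc' : polar QK d u • a =
        (c + polar QK a u + QK a * polar QK d u) • d := by
      linear_combination (norm := module) -hc
    have h0 := congrArg (polar QK f) hc'
    rw [polar_smul_right, polar_smul_right, hfa, smul_zero, polar_comm QK f d, hdf, smul_eq_mul,
      mul_one] at h0
    rw [← h0, zero_smul, smul_eq_zero] at hc'
    exact ha0 (hc'.resolve_left hdu)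
  have hy'perp : y' ∈ perpSub Q (kline F K y) := fun n hn => by
    obtain ⟨c, rfl⟩ := mem_kline.1 (hLd.symm ▸ hn)
    show polar Q (c • d) y' = 0
    rw [hy', hkx, hS.polar_smul]
    simp [polar_add_right, polar_sub_right, polar_smul_right, hda, hdd]
  by_cases hkU : (img K g z).map k.1.toLinearMap = img K g z
  · exfalso
    have hy'U : y' ∈ img K g z :=
      hy' ▸ sub_mem (hkU ▸ Submodule.mem_map_of_mem (f := k.1.toLinearMap) hu) hu
    have hle : img K g z ⊓ kline F K y ≤ img K g z ⊓ perpSub Q (kline F K y) :=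
      le_inf inf_le_left fun x hxm n hn => hS.kline_polar hy hn hxm.2
    have hlt : finrank F ↥(img K g z ⊓ kline F K y) <
        finrank F ↥(img K g z ⊓ perpSub Q (kline F K y)) :=
      Submodule.finrank_lt_finrank_of_lt (lt_of_le_not_ge hle fun h => hy'L (h ⟨hy'U, hy'perp⟩).2)
    rw [← finrank_inf_perp hS.bnondeg hfU] at hlt
    have := Submodule.finrank_mono (show kline F K y ⊓ perpSub Q (img K g z) ≤
      img K g z ⊓ kline F K y from le_inf hLU inf_le_left)
    omega
  obtain ⟨g', hg'⟩ : ∃ g', g' = g⁻¹ * k * g := ⟨_, rfl⟩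
  have hg'x : ∀ x, g.1 (g'.1 x) = k.1 (g.1 x) := fun x => by
    rw [hg']; exact g.1.apply_symm_apply _
  have hg'M : g' ∈ M := hg' ▸ mul_mem (mul_mem (inv_mem hg) hk) hg
  have himg : (img K g' z).map g.1.toLinearMap = (img K g z).map k.1.toLinearMap := by
    rw [img, img, ← Submodule.map_comp, ← Submodule.map_comp]
    exact congrArg (Submodule.map · (kline F K z)) (LinearMap.ext hg'x)
  have hinf : (img K g' z ⊓ kline F K z).map g.1.toLinearMap =
      (img K g z).map k.1.toLinearMap ⊓ img K g z := by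
    rw [Submodule.map_inf _ g.1.injective, himg]
    rfl
  have hne' : img K g' z ≠ kline F K z := fun e => hkU (by rw [← himg, e]; rfl)
  have hle : img K g z ⊓ kline F K y ≤ (img K g z).map k.1.toLinearMap ⊓ img K g z :=
    fun x hxm => ⟨⟨x, hxm.1, hfix x hxm.2⟩, hxm.1⟩
  have hfin : finrank F ↥(img K g' z ⊓ kline F K z) =
      finrank F ↥((img K g z).map k.1.toLinearMap ⊓ img K g z) := by
    rw [← hinf, LinearEquiv.finrank_map_eq]
  have hle' : finrank F ↥(img K g' z ⊓ kline F K z) ≤ em := not_lt.1 fun h =>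
    hne' (hmax g' hg'M z z hz hz0 hz hz0 h)
  have heq := Submodule.eq_of_le_of_finrank_le hle (by rw [← hfin, he]; exact hle')
  refine ⟨g', z, z, g.1.symm u, hg'M, hz, hz0, hz, hz0, hne', ?_, ?_, ?_, ?_, ?_⟩
  · intro hb
    rw [hb, Submodule.map_bot, ← heq] at hinf
    exact hbot hinf.symm
  · obtain ⟨c, rfl⟩ := mem_img.1 hu
    rw [LinearEquiv.symm_apply_apply]
    exact mem_kline.2 ⟨c, rfl⟩
  · intro hm
    obtain ⟨c, hc⟩ := mem_img.1 hm
    have hc' : k.1 (g.1 (c • z)) = u := by rw [← hg'x, hc, LinearEquiv.apply_symm_apply]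
    have : u ∈ img K g z ⊓ kline F K y := by
      rw [heq]
      exact ⟨⟨_, mem_img.2 ⟨c, rfl⟩, hc'⟩, hu⟩
    exact huL this.2
  · intro c
    rw [← OQ_polar g, hg'x, LinearEquiv.apply_symm_apply]
    exact hcond _ (mem_img.2 ⟨c, rfl⟩)
  · intro g'' hg'' z' y'' h1 h2 h3 h4 hlt
    refine hmax g'' hg'' z' y'' h1 h2 h3 h4 (lt_of_le_of_lt ?_ hlt)
    rw [hfin, ← heq, he]


/-- Meeting members give an element fixing a hyperplane. -/
theorem cent_of_pair {g₀ : OQ Q} (hg₀ : g₀ ∈ M) {z₀ y₀ : V} (hz₀ : QK z₀ = 0) (hz₀' : z₀ ≠ 0)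
    (hy₀ : QK y₀ = 0) (hy₀' : y₀ ≠ 0) (hne₀ : img K g₀ z₀ ≠ kline F K y₀)
    (hmeet : img K g₀ z₀ ⊓ kline F K y₀ ≠ ⊥) : ∃ v, QK v = 0 ∧ v ≠ 0 ∧ Cent QK M v := by
  classical
  obtain ⟨g, z, y, x₀, hg, hz, hz0, hy, hy0, hne, hbot, hx₀, hx₀U, hperp, hmax⟩ :=
    hS.exists_max hg₀ hz₀ hz₀' hy₀ hy₀' hne₀ hmeet
  haveI := hS.finiteF
  haveI := hS.finiteDim
  haveI := hS.finiteV
  have hzz : polar QK z z = 0 := hS.sing_iff.1 hz
  obtain ⟨x', hx'⟩ : ∃ x', x' = g.1.symm x₀ := ⟨_, rfl⟩
  have hgx' : g.1 x' = x₀ := by rw [hx', LinearEquiv.apply_symm_apply]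
  have hzx' : polar QK z x' = 0 := hS.ext_tr fun k => by
    rw [mul_zero, map_zero, ← hS.polar_smul, ← OQ_polar g, hgx', hperp]
  have hx'z : ∀ c : K, c • z ≠ x' := fun c h => hx₀U (mem_img.2 ⟨c, by rw [h, hgx']⟩)
  obtain ⟨d, hd, hd0⟩ := (Submodule.ne_bot_iff _).1 hbot
  obtain ⟨k₀, hk₀⟩ := mem_img.1 hd.1
  have hLd : kline F K d = kline F K y := kline_eq hd.2 hd0
  have hdq : QK d = 0 := by
    obtain ⟨c, hc⟩ := mem_kline.1 hd.2
    rw [← hc, QuadraticMap.map_smul, hy, smul_zero]
  have hdd : polar QK d d = 0 := hS.sing_iff.1 hdq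
  obtain ⟨a₁, ha₁, ha₁x⟩ := hS.exists_dual hx'z
  obtain ⟨t, ht, htx⟩ := hS.exists_siegel hz (a := k₀ • a₁)
    (by rw [polar_smul_right, ha₁, smul_zero])
  obtain ⟨R, hRdef⟩ : ∃ R, R = g * t * g⁻¹ := ⟨_, rfl⟩
  have hRx : ∀ x, R.1 x = g.1 (t.1 (g.1.symm x)) := fun x => by rw [hRdef]; rfl
  have hRM : R ∈ M := hRdef ▸ mul_mem (mul_mem hg ht) (inv_mem hg)
  have hRU : ∀ x ∈ img K g z, R.1 x = x := by
    intro x hx
    obtain ⟨k, rfl⟩ := mem_img.1 hx
    rw [hRx, LinearEquiv.symm_apply_apply, htx]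
    simp [polar_smul_right, hzz, polar_smul_left, polar_comm QK a₁ z, ha₁]
  have hR0 : R.1 x₀ = x₀ - d := by
    rw [hRx, ← hx', htx, hzx', polar_smul_left, polar_comm QK a₁, ha₁x, ← hk₀]
    simp [map_sub, hgx']
  have hline : img K R y = kline F K y := by
    refine hmax R hRM y y hy hy0 hy hy0 (Submodule.finrank_lt_finrank_of_lt ?_)
    refine lt_of_le_not_ge (fun x hx => ⟨⟨x, hx.2, hRU x hx.1⟩, hx.2⟩) fun hle => ?_
    have hmem : R.1 x₀ ∈ img K g z ⊓ kline F K y :=
      hle ⟨Submodule.mem_map_of_mem hx₀, hR0 ▸ sub_mem hx₀ hd.2⟩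
    apply hx₀U
    rw [← R.1.injective (hRU _ hmem.1)]
    exact hmem.1
  have hRd : R.1 d = d := hRU d hd.1
  have hl : ∀ k : K, ∃ k' : K, R.1 (k • d) = k' • d := fun k => by
    obtain ⟨k', hk'⟩ := mem_kline.1 (hLd ▸ hline.le
      (Submodule.mem_map_of_mem (f := R.1.toLinearMap) (smul_mem_kline hd.2 k)))
    exact ⟨k', hk'.symm⟩
  rcases hS.key hRM hdq hd0 hdq hd0 hl with hC | ⟨θ, hθ⟩
  · exact ⟨d, hdq, hd0, hC⟩
  rcases hS.cent_or_semilinear hRM hdq hd0 (by rw [hRd]; exact hdq) θ hθ with hC | hsemi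
  · exact ⟨d, hdq, hd0, hC⟩
  obtain ⟨l₀, hl₀⟩ := mem_kline.1 (hLd.symm ▸ hx₀)
  have hfixF : ∀ k : K, θ k = k → ∃ c : F, k = algebraMap F K c := by
    intro k hk
    let S : Subalgebra F K := AlgHom.equalizer θ.toAlgHom (AlgHom.id F K)
    haveI := Subalgebra.isSimpleOrder_of_finrank_prime F K hS.prime
    rcases eq_bot_or_eq_top S with hb | htop
    · have hk' : k ∈ S := hk
      rw [hb, Algebra.mem_bot] at hk'
      obtain ⟨c, hc⟩ := hk'
      exact ⟨c, hc.symm⟩
    · exfalso
      have hid : θ l₀ = l₀ := show l₀ ∈ S from htop ▸ Algebra.mem_top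
      rw [← hl₀, hsemi, hRd, hid] at hR0
      exact hd0 (sub_eq_self.1 hR0.symm)
  have hsp : ∀ x ∈ img K g z, ∀ x' ∈ img K g z, ∃ c : F, polar QK x x' = algebraMap F K c := by
    intro x hx x' hx'
    refine hfixF _ (hS.ext_tr fun k => ?_)
    obtain ⟨l, rfl⟩ := θ.surjective k
    rw [← map_mul, Algebra.trace_eq_of_algEquiv, ← hS.polar_smul, ← OQ_polar R, hsemi, hRU x hx,
      hRU x' hx', hS.polar_smul]
  obtain ⟨H, hH⟩ := Algebra.trace_surjective F K (1 : F)
  have htrH : ∀ c : F, Algebra.trace F K (H * algebraMap F K c) = c := fun c => by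
    rw [mul_comm, ← Algebra.smul_def, map_smul, hH, smul_eq_mul, mul_one]
  have hval : ∀ x ∈ img K g z, ∃ c : F, QK x = algebraMap F K c := by
    intro x hx
    obtain ⟨c, hc⟩ := hsp x hx x hx
    rw [polar_self, two_smul, ← two_mul] at hc
    refine ⟨c / 2, ?_⟩
    rw [map_div₀, map_ofNat, ← hc, mul_div_cancel_left₀ _ hS.twoK]
  have hrk : finrank F (img K g z) = 3 := by rw [finrank_img hz0, hS.rank]
  -- an orthogonal basis of the fixed form
  obtain ⟨p₁, hp₁, hQ₁⟩ : ∃ p ∈ img K g z, QK p ≠ 0 := by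
    by_contra hcon
    push Not at hcon
    refine hne (Submodule.eq_of_le_of_finrank_eq (fun x hx => ?_)
      (by rw [finrank_img hz0, finrank_kline hy0]))
    obtain ⟨c, hc⟩ := hS.mem_line_of_sing hdq hd0 (hcon x hx) (by
      rw [polar, hcon _ (add_mem hd.1 hx), hdq, hcon x hx]; ring)
    exact hLd ▸ mem_kline.2 ⟨c, hc⟩
  let φ : V →ₗ[F] img K g z →ₗ[F] F := LinearMap.mk₂ F
    (fun q x => Algebra.trace F K (H * polar QK q (x : V)))
    (fun q q' x => by rw [polar_add_left, mul_add, map_add])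
    (fun t q x => by
      rw [← algebraMap_smul K t q, polar_smul_left, smul_eq_mul, mul_left_comm, ← Algebra.smul_def,
        map_smul])
    (fun q x x' => by rw [Submodule.coe_add, polar_add_right, mul_add, map_add])
    (fun t q x => by
      rw [Submodule.coe_smul_of_tower, ← algebraMap_smul K t (x : V), polar_smul_right, smul_eq_mul,
        mul_left_comm, ← Algebra.smul_def, map_smul])
  have hφ : ∀ q ∈ img K g z, ∀ x : img K g z, φ q x = 0 → polar QK q (x : V) = 0 := by
    intro q hq x hx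
    obtain ⟨c, hc⟩ := hsp q hq x x.2
    change Algebra.trace F K (H * polar QK q (x : V)) = 0 at hx
    rw [hc, htrH] at hx
    rw [hc, hx, map_zero]
  obtain ⟨u, hu, hpu, hQu⟩ : ∃ u ∈ img K g z, polar QK p₁ u = 0 ∧ QK u ≠ 0 := by
    by_contra hcon
    push Not at hcon
    have h1 := LinearMap.finrank_range_add_finrank_ker (φ p₁)
    have h2 := (LinearMap.range (φ p₁)).finrank_le
    rw [Module.finrank_self] at h2
    rw [hrk] at h1
    obtain ⟨u₀, hu₀, hu₀0⟩ := (Submodule.ne_bot_iff (LinearMap.ker (φ p₁))).1 (fun hb => by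
      rw [hb, finrank_bot] at h1; omega)
    have hle : LinearMap.ker (φ p₁) ≤ F ∙ u₀ := by
      intro x hx
      have q0 := hcon _ u₀.2 (hφ _ hp₁ _ hu₀)
      have qx := hcon _ x.2 (hφ _ hp₁ _ hx)
      obtain ⟨k, hk⟩ := hS.mem_line_of_sing q0 (fun e => hu₀0 (Subtype.ext e)) qx (by
        rw [polar, hcon _ (add_mem u₀.2 x.2) (by
          rw [polar_add_right, hφ _ hp₁ _ hu₀, hφ _ hp₁ _ hx, add_zero]), q0, qx]; ring)
      have e : θ k • (u₀ : V) = k • (u₀ : V) := by
        have e2 := hsemi k (u₀ : V)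
        rwa [hk, hRU _ x.2, hRU _ u₀.2, ← hk, eq_comm] at e2
      obtain ⟨c, rfl⟩ := hfixF k (smul_left_injective K (fun e => hu₀0 (Subtype.ext e)) e)
      refine Submodule.mem_span_singleton.2 ⟨c, Subtype.ext ?_⟩
      rw [Submodule.coe_smul_of_tower, ← algebraMap_smul K c (u₀ : V), hk]
    have h3 := Submodule.finrank_mono hle
    rw [finrank_span_singleton hu₀0] at h3
    omega
  obtain ⟨w, hw, hpw, huw, hQw⟩ : ∃ w ∈ img K g z, polar QK p₁ w = 0 ∧ polar QK u w = 0 ∧
      QK w ≠ 0 := by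
    obtain ⟨x, hx, hx0⟩ := (Submodule.ne_bot_iff (LinearMap.ker ((φ p₁).prod (φ u)))).1 (fun hb => by
      have h1 := LinearMap.finrank_range_add_finrank_ker ((φ p₁).prod (φ u))
      have h2 := (LinearMap.range ((φ p₁).prod (φ u))).finrank_le
      rw [Module.finrank_prod, Module.finrank_self] at h2
      rw [hb, finrank_bot, hrk] at h1
      omega)
    obtain ⟨hx1, hx2⟩ : φ p₁ x = 0 ∧ φ u x = 0 :=
      Prod.ext_iff.1 (show (φ p₁ x, φ u x) = (0, 0) from hx)
    have e1 := hφ _ hp₁ _ hx1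
    have e2 := hφ _ hu _ hx2
    refine ⟨x, x.2, e1, e2, fun e3 => hx0 (Subtype.ext ?_)⟩
    show (x : V) = 0
    by_contra hxv
    have hli : LinearIndependent K ![p₁, u, (x : V)] := by
      rw [Fintype.linearIndependent_iff]
      intro c hc
      simp only [Fin.sum_univ_three, Matrix.cons_val_zero, Matrix.cons_val_one, Matrix.cons_val_two,
        Matrix.head_cons, Matrix.tail_cons] at hc
      have c1 := congrArg (polar QK p₁) hc
      have c2 := congrArg (polar QK u) hc
      simp [polar_add_right, polar_smul_right, polar_comm QK u p₁, hpu, e1, e2, hS.twoK, hQ₁, hQu,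
        polar_self] at c1 c2
      rw [c1, c2, zero_smul, zero_smul, zero_add, zero_add, smul_eq_zero, or_iff_left hxv] at hc
      intro i
      fin_cases i
      · exact c1
      · exact c2
      · exact hc
    let bs := basisOfLinearIndependentOfCardEqFinrank hli (by rw [Fintype.card_fin, hS.dim])
    refine hxv (hS.nondeg _ fun v => ?_)
    rw [← bs.sum_repr v]
    simp [bs, Fin.sum_univ_three, polar_add_right, polar_smul_right, polar_comm QK (x : V) p₁,
      polar_comm QK (x : V) u, e1, e2, hS.sing_iff.1 e3]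
  obtain ⟨a, ha⟩ := hval p₁ hp₁
  obtain ⟨b, hb⟩ := hval u hu
  obtain ⟨c, hc⟩ := hval w hw
  have ha0 : a ≠ 0 := fun e => hQ₁ (by rw [ha, e, map_zero])
  have hb0 : b ≠ 0 := fun e => hQu (by rw [hb, e, map_zero])
  have hc0 : c ≠ 0 := fun e => hQw (by rw [hc, e, map_zero])
  obtain ⟨s, t', hst⟩ := exists_two_squares hS.two hb0 hc0 a
  obtain ⟨p₂, hp₂e⟩ : ∃ p, p = s • u + t' • w := ⟨_, rfl⟩
  obtain ⟨p₃, hp₃e⟩ : ∃ p, p = (t' * c) • u - (s * b) • w := ⟨_, rfl⟩
  have hp₂ : p₂ ∈ img K g z := hp₂e ▸ add_mem (Submodule.smul_mem _ s hu) (Submodule.smul_mem _ t' hw)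
  have hp₃ : p₃ ∈ img K g z := hp₃e ▸ sub_mem (Submodule.smul_mem _ _ hu) (Submodule.smul_mem _ _ hw)
  have h12 : polar QK p₁ p₂ = 0 := by
    rw [hp₂e, polar_add_right, ← algebraMap_smul K s u, ← algebraMap_smul K t' w, polar_smul_right,
      polar_smul_right, hpu, hpw]
    simp
  have h13 : polar QK p₁ p₃ = 0 := by
    rw [hp₃e, polar_sub_right, ← algebraMap_smul K (t' * c) u, ← algebraMap_smul K (s * b) w,
      polar_smul_right, polar_smul_right, hpu, hpw]
    simp
  have h23 : polar QK p₂ p₃ = 0 := by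
    rw [hp₃e, hp₂e, ← algebraMap_smul K (t' * c) u, ← algebraMap_smul K (s * b) w,
      ← algebraMap_smul K s u, ← algebraMap_smul K t' w]
    simp [polar_add_left, polar_sub_right, polar_smul_left, polar_smul_right, polar_comm QK w u,
      huw, polar_self, hb, hc]
    simp only [Algebra.smul_def]
    ring
  have hQ₂ : QK p₂ = algebraMap F K a := by
    rw [hp₂e, ← algebraMap_smul K s u, ← algebraMap_smul K t' w, qf_add, QuadraticMap.map_smul,
      QuadraticMap.map_smul, polar_smul_left, polar_smul_right, huw, hb, hc, ← hst]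
    simp only [map_add, map_mul, smul_eq_mul]
    ring
  have hp₃0 : p₃ ≠ 0 := by
    intro e
    rw [hp₃e, sub_eq_zero] at e
    have e1 := congrArg (polar QK u) e
    have e2 := congrArg (polar QK w) e
    rw [← algebraMap_smul K (t' * c) u, ← algebraMap_smul K (s * b) w, polar_smul_right,
      polar_smul_right] at e1 e2
    simp [huw, polar_comm QK w u, polar_self, hS.twoK, hQu, hQw, hc0, hb0] at e1 e2
    rw [e1, e2] at hst
    exact ha0 (by linear_combination -hst)
  let r₁ : {x : V // QK x ≠ 0} := ⟨p₁, hQ₁⟩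
  let r₂ : {x : V // QK x ≠ 0} := ⟨p₂, by rw [hQ₂, ← ha]; exact hQ₁⟩
  have hmem : Forms.refls QK [r₁, r₂] ∈ commutator (OQ QK) := by
    rw [Forms.refls_mem_commutator_iff hS.nondeg hS.notExc]
    refine ⟨⟨1, rfl⟩, ⟨algebraMap F K a, ?_⟩⟩
    simp [r₁, r₂, hQ₂, ha]
  obtain ⟨S, hSM, hSx⟩ := hS.lin _ hmem
  have hSlin : ∀ (k : K) x, S.1 (k • x) = k • S.1 x := fun k x => by
    rw [hSx, hSx, LinearEquiv.map_smul]
  have hSform : ∀ x, S.1 x = x - (polar QK p₁ x / QK p₁) • p₁ - (polar QK p₂ x / QK p₂) • p₂ := by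
    intro x
    rw [hSx]
    simp only [Forms.refls_cons, Forms.refls_nil, mul_one, Subgroup.coe_mul, LinearEquiv.mul_apply,
      reflQ_apply, r₁, r₂, polar_sub_right, polar_smul_right, h12, smul_zero, sub_zero]
    module
  have h11 : polar QK p₁ p₁ / QK p₁ = 2 := by
    rw [polar_self, two_smul, ← two_mul, mul_div_assoc, div_self hQ₁, mul_one]
  have hQ₂0 : QK p₂ ≠ 0 := r₂.2
  have h22 : polar QK p₂ p₂ / QK p₂ = 2 := by
    rw [polar_self, two_smul, ← two_mul, mul_div_assoc, div_self hQ₂0, mul_one]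
  have hS1 : S.1 p₁ = -p₁ := by
    rw [hSform, h11, polar_comm QK p₂ p₁, h12, zero_div, zero_smul, sub_zero]
    module
  have hS2 : S.1 p₂ = -p₂ := by
    rw [hSform, h22, h12, zero_div, zero_smul, sub_zero]
    module
  have hS3 : S.1 p₃ = p₃ := by
    rw [hSform, h13, h23]; simp
  have hSS : ∀ x, S.1 (S.1 x) = x := by
    intro x
    conv_lhs => rw [hSform x, map_sub, map_sub, hSlin, hSlin, hS1, hS2, hSform x]
    module
  have hSP : ∀ x ∈ img K g z, S.1 x ∈ img K g z := by
    intro x hx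
    obtain ⟨c₁, e₁⟩ := hsp p₁ hp₁ x hx
    obtain ⟨c₂, e₂⟩ := hsp p₂ hp₂ x hx
    rw [hSform, e₁, e₂, ha, hQ₂, ← map_div₀, ← map_div₀, algebraMap_smul, algebraMap_smul]
    exact sub_mem (sub_mem hx (Submodule.smul_mem _ _ hp₁)) (Submodule.smul_mem _ _ hp₂)
  obtain ⟨h, hh⟩ : ∃ h, h = g⁻¹ * S * g := ⟨_, rfl⟩
  have hhx : ∀ x, h.1 x = g.1.symm (S.1 (g.1 x)) := fun x => by rw [hh]; rfl
  have hhM : h ∈ M := hh ▸ mul_mem (mul_mem (inv_mem hg) hSM) hg
  have hhl : ∀ k : K, ∃ k' : K, h.1 (k • z) = k' • z := fun k => by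
    obtain ⟨k', hk'⟩ := mem_img.1 (hSP _ (mem_img.2 ⟨k, rfl⟩))
    exact ⟨k', by rw [hhx, ← hk', LinearEquiv.symm_apply_apply]⟩
  rcases hS.key hhM hz hz0 hz hz0 hhl with hC | ⟨θ', hθ'⟩
  · exact ⟨z, hz, hz0, hC⟩
  obtain ⟨c', hc'⟩ := hhl 1
  rw [one_smul] at hc'
  rcases hS.cent_or_semilinear hhM hz hz0
    (by rw [hc', QuadraticMap.map_smul, hz, smul_zero]) θ' hθ' with hC | hsemi'
  · exact ⟨z, hz, hz0, hC⟩
  exfalso
  have hinv : ∀ x, h.1 (h.1 x) = x := fun x => by
    rw [hhx, hhx, LinearEquiv.apply_symm_apply, hSS, LinearEquiv.symm_apply_apply]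
  have hθ'1 : ∀ k, θ' k = k := by
    have h2 : ∀ k, θ' (θ' k) = k := fun k => by
      refine smul_left_injective K hz0 (show θ' (θ' k) • z = k • z from ?_)
      have e := hinv (k • z)
      rwa [hsemi', hsemi', hinv] at e
    intro k
    let Fx : Subalgebra F K := AlgHom.equalizer θ'.toAlgHom (AlgHom.id F K)
    haveI := Subalgebra.isSimpleOrder_of_finrank_prime F K hS.prime
    rcases eq_bot_or_eq_top Fx with hbot' | htop'
    swap
    · exact show k ∈ Fx from htop' ▸ Algebra.mem_top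
    have hmem1 : k + θ' k ∈ Fx := show θ' (k + θ' k) = k + θ' k by rw [map_add, h2, add_comm]
    have hmem2 : k * θ' k ∈ Fx := show θ' (k * θ' k) = k * θ' k by rw [map_mul, h2, mul_comm]
    rw [hbot', Algebra.mem_bot] at hmem1 hmem2
    obtain ⟨c₁, e₁⟩ := hmem1
    obtain ⟨c₂, e₂⟩ := hmem2
    obtain ⟨r, hr⟩ := hS.mem_range_of_quadratic (r := k) (c := -c₁) (e := c₂) (by
      rw [map_neg, e₁, e₂]; ring)
    rw [hr, AlgEquiv.commutes]
  have hlin' : ∀ k x, h.1 (k • x) = k • h.1 x := fun k x => by rw [hsemi', hθ'1]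
  have hcc : c' * c' = 1 := by
    refine smul_left_injective K hz0 (show (c' * c') • z = (1 : K) • z from ?_)
    have e := hinv z
    rw [hc', hlin', hc', smul_smul] at e
    rw [e, one_smul]
  have hSc : ∀ x ∈ img K g z, ∃ k : K, x = g.1 (k • z) ∧ S.1 x = g.1 ((k * c') • z) := by
    intro x hx
    obtain ⟨k, rfl⟩ := mem_img.1 hx
    refine ⟨k, rfl, ?_⟩
    rw [← smul_smul, ← hc', ← hlin', hhx, LinearEquiv.apply_symm_apply]
  have h2V : ∀ x : V, x = -x → x = 0 := fun x hx => by
    rw [eq_neg_iff_add_eq_zero, ← two_smul K x, smul_eq_zero] at hx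
    exact hx.resolve_left hS.twoK
  rcases mul_self_eq_one_iff.1 hcc with h1 | h1
  · obtain ⟨k, hk, e⟩ := hSc p₁ hp₁
    rw [h1, mul_one, ← hk, hS1] at e
    exact hQ₁ (by rw [h2V p₁ e.symm, QuadraticMap.map_zero])
  · obtain ⟨k, hk, e⟩ := hSc p₃ hp₃
    rw [h1, mul_neg, mul_one, neg_smul, map_neg, ← hk, hS3] at e
    exact hp₃0 (h2V p₃ e)

end Setup

end Cfsg.Agent.MaxSub.OrthExtNine
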